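import Mathlib

/-!
Two-factor tensor decompositions `V = W ⊗ B`, `W = F^k` with an alternating non-degenerate form `ω`, described by
the maps `ι w : B → V`, `b ↦ w ⊗ b`, and the contractions `κ u : V → B`, `w ⊗ b ↦ ω u w • b`.
-/

set_option autoImplicit false
set_option linter.unusedSectionVars false

namespace Cfsg.Agent.H889.C7

open Module

variable {F : Type*} [Field F] {k : ℕ}

/-- `ω` is alternating and non-degenerate. -/
structure Symp (ω : LinearMap.BilinForm F (Fin k → F)) : Prop where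
  alt : ∀ u, ω u u = 0
  nd : ∀ u, (∀ v, ω u v = 0) → u = 0

namespace Symp

variable {ω : LinearMap.BilinForm F (Fin k → F)} (hω : Symp ω)
include hω

theorem skew (u v : Fin k → F) : ω u v = -ω v u := by
  have h := hω.alt (u + v)
  simp only [map_add, LinearMap.add_apply, hω.alt, zero_add, add_zero] at h
  exact eq_neg_of_add_eq_zero_right h

theorem exists_repr (φ : (Fin k → F) →ₗ[F] F) : ∃ u, ∀ w, ω u w = φ w := by
  have hinj : Function.Injective (ω : (Fin k → F) →ₗ[F] ((Fin k → F) →ₗ[F] F)) := by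
    rw [← LinearMap.ker_eq_bot, LinearMap.ker_eq_bot']
    intro u hu
    exact hω.nd u fun v => by rw [hu]; rfl
  have hfin : finrank F (Fin k → F) = finrank F ((Fin k → F) →ₗ[F] F) :=
    (Subspace.dual_finrank_eq (K := F) (V := Fin k → F)).symm
  have hsurj := (LinearMap.injective_iff_surjective_of_finrank_eq_finrank hfin).1 hinj
  obtain ⟨u, hu⟩ := hsurj φ
  exact ⟨u, fun w => by rw [hu]⟩

theorem exists_pair {a : Fin k → F} (ha : a ≠ 0) : ∃ b, ω a b = 1 := by
  by_contra hcon
  push Not at hcon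
  refine ha (hω.nd a fun v => ?_)
  by_contra hv
  apply hcon ((ω a v)⁻¹ • v)
  rw [map_smul, smul_eq_mul, inv_mul_cancel₀ hv]

/-- Given independent `w`, `w'` there is `u` with `ω u w = 1`, `ω u w' = 0`. -/
theorem exists_sep {w w' : Fin k → F} (h : ∀ c : F, w ≠ c • w') (_hw' : True) :
    ∃ u, ω u w = 1 ∧ ω u w' = 0 := by
  have h1 : w ∉ Submodule.span F {w'} := by
    intro hmem
    obtain ⟨c, hc⟩ := Submodule.mem_span_singleton.1 hmem
    exact h c hc.symm
  obtain ⟨φ, hφ, hφ'⟩ := Submodule.exists_dual_map_eq_bot_of_notMem h1 inferInstance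
  obtain ⟨u, hu⟩ := hω.exists_repr φ
  have h2 : φ w' = 0 := by
    have : φ w' ∈ (Submodule.span F {w'}).map φ :=
      Submodule.mem_map_of_mem (Submodule.mem_span_singleton_self w')
    rw [hφ'] at this
    exact (Submodule.mem_bot F).1 this
  refine ⟨(φ w)⁻¹ • u, ?_, ?_⟩
  · rw [map_smul, LinearMap.smul_apply, hu, smul_eq_mul, inv_mul_cancel₀ hφ]
  · rw [map_smul, LinearMap.smul_apply, hu, h2, smul_zero]

theorem pair_indep {a b : Fin k → F} (h : ω a b = 1) (c : F) : a ≠ c • b := by
  intro e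
  rw [e, map_smul, LinearMap.smul_apply, hω.alt, smul_zero] at h
  exact zero_ne_one h

/-- Double perpendicular of a vector. -/
theorem eq_smul_of_perp {a u : Fin k → F} (ha : a ≠ 0) (h : ∀ n, ω a n = 0 → ω u n = 0) :
    ∃ c : F, u = c • a := by
  obtain ⟨a', ha'⟩ := hω.exists_pair ha
  refine ⟨ω u a', ?_⟩
  rw [← sub_eq_zero]
  apply hω.nd
  intro v
  have h1 := h (v - ω a v • a') (by rw [map_sub, map_smul, ha', smul_eq_mul, mul_one, sub_self])
  rw [map_sub, map_smul, smul_eq_mul, sub_eq_zero] at h1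
  rw [map_sub, LinearMap.sub_apply, h1, map_smul, LinearMap.smul_apply, smul_eq_mul, mul_comm, sub_self]

end Symp

/-- The data of a decomposition `V = F^k ⊗ B`. -/
structure TD (ω : LinearMap.BilinForm F (Fin k → F)) (B V : Type*) [AddCommGroup B] [Module F B]
    [AddCommGroup V] [Module F V] where
  ι : (Fin k → F) →ₗ[F] B →ₗ[F] V
  κ : (Fin k → F) →ₗ[F] V →ₗ[F] B
  κι : ∀ u w b, κ u (ι w b) = ω u w • b
  inj : ∀ v, (∀ u, κ u v = 0) → v = 0

namespace TD

variable {ω : LinearMap.BilinForm F (Fin k → F)} {B V : Type*} [AddCommGroup B] [Module F B]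
  [AddCommGroup V] [Module F V] (D : TD ω B V)

/-- A dual basis: `ω (D.dualv p) w = w p`. -/
theorem exists_dualv (hω : Symp ω) : ∃ d : Fin k → (Fin k → F), ∀ p w, ω (d p) w = w p := by
  have h : ∀ p : Fin k, ∃ u, ∀ w, ω u w = w p := fun p => hω.exists_repr (LinearMap.proj p)
  choose d hd using h
  exact ⟨d, hd⟩

/-- The dual basis of `W`. -/
noncomputable def dualv (hω : Symp ω) : Fin k → (Fin k → F) := (exists_dualv hω).choose

theorem ω_dualv (hω : Symp ω) (p : Fin k) (w : Fin k → F) : ω (dualv hω p) w = w p :=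
  (exists_dualv hω).choose_spec p w

theorem sum_single (w : Fin k → F) : ∑ p, w p • (Pi.single p (1 : F) : Fin k → F) = w := by
  funext x
  rw [Finset.sum_apply, Finset.sum_eq_single x]
  · simp
  · intro b _ hb
    simp [Pi.single_apply, Ne.symm hb]
  · intro h
    exact absurd (Finset.mem_univ x) h

theorem expand (hω : Symp ω) (v : V) : v = ∑ p, D.ι (Pi.single p 1) (D.κ (dualv hω p) v) := by
  rw [← sub_eq_zero]
  apply D.inj
  intro u
  rw [map_sub, map_sum]
  simp only [D.κι]
  have h1 : u = ∑ p, ω u (Pi.single p 1) • dualv hω p := by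
    rw [← sub_eq_zero]
    apply hω.nd
    intro w
    rw [map_sub, LinearMap.sub_apply, map_sum, LinearMap.sum_apply, sub_eq_zero]
    simp only [map_smul, LinearMap.smul_apply, ω_dualv, smul_eq_mul]
    conv_lhs => rw [← sum_single w]
    rw [map_sum]
    refine Finset.sum_congr rfl fun p _ => ?_
    rw [map_smul, smul_eq_mul, mul_comm]
  have h2 : D.κ u v = ∑ p, ω u (Pi.single p 1) • D.κ (dualv hω p) v := by
    conv_lhs => rw [h1]
    rw [map_sum, LinearMap.sum_apply]
    refine Finset.sum_congr rfl fun p _ => ?_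
    rw [map_smul, LinearMap.smul_apply]
  rw [h2, sub_self]

include D in
/-- Linear maps agreeing on all `w ⊗ b` agree. -/
theorem ext (hω : Symp ω) {V' : Type*} [AddCommGroup V'] [Module F V'] {A A' : V →ₗ[F] V'}
    (h : ∀ w b, A (D.ι w b) = A' (D.ι w b)) : A = A' := by
  ext v
  rw [D.expand hω v, map_sum, map_sum]
  exact Finset.sum_congr rfl fun p _ => h _ _

theorem ι_inj {w : Fin k → F} (hω : Symp ω) (hw : w ≠ 0) {b : B} (h : D.ι w b = 0) : b = 0 := by
  obtain ⟨u, hu⟩ := hω.exists_pair hw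
  have h1 := D.κι (-u) w b
  rw [h, map_zero, map_neg, LinearMap.neg_apply, hω.skew u w, hu, neg_neg, one_smul] at h1
  exact h1.symm

/-- A vector killed by all `κ n`, `n ⊥ a`, is `a ⊗ b`. -/
theorem exists_of_perp (hω : Symp ω) {a : Fin k → F} (ha : a ≠ 0) {v : V}
    (h : ∀ n, ω a n = 0 → D.κ n v = 0) : ∃ b, v = D.ι a b := by
  obtain ⟨a', ha'⟩ := hω.exists_pair ha
  refine ⟨-D.κ a' v, ?_⟩
  rw [← sub_eq_zero]
  apply D.inj
  intro u
  have h1 := h (u - ω a u • a') (by rw [map_sub, map_smul, ha', smul_eq_mul, mul_one, sub_self])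
  rw [map_sub, LinearMap.sub_apply, map_smul, LinearMap.smul_apply, sub_eq_zero] at h1
  rw [map_sub, D.κι, h1, hω.skew u a, smul_neg, neg_smul, neg_neg, sub_self]

theorem indep (hω : Symp ω) {w w' : Fin k → F} (h : ∀ c : F, w ≠ c • w') {b b' : B}
    (hb : D.ι w b + D.ι w' b' = 0) : b = 0 := by
  obtain ⟨u, h1, h2⟩ := hω.exists_sep h trivial
  have h3 := congrArg (D.κ u) hb
  rw [map_add, D.κι, D.κι, h1, h2, one_smul, zero_smul, add_zero, map_zero] at h3
  exact h3

/-- The operator `α ⊗ β`. -/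
noncomputable def map (hω : Symp ω) (α : Module.End F (Fin k → F)) (β : Module.End F B) :
    Module.End F V :=
  ∑ p, (D.ι (α (Pi.single p 1))) ∘ₗ β ∘ₗ (D.κ (dualv hω p))

theorem map_ι (hω : Symp ω) (α : Module.End F (Fin k → F)) (β : Module.End F B)
    (w : Fin k → F) (b : B) : D.map hω α β (D.ι w b) = D.ι (α w) (β b) := by
  rw [map, LinearMap.sum_apply]
  simp only [LinearMap.comp_apply, D.κι, ω_dualv, map_smul]
  have h : α w = ∑ p, w p • α (Pi.single p 1) := by
    conv_lhs => rw [← sum_single w]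
    rw [map_sum]
    exact Finset.sum_congr rfl fun p _ => map_smul _ _ _
  rw [h, map_sum, LinearMap.sum_apply]
  refine Finset.sum_congr rfl fun p _ => ?_
  rw [map_smul, LinearMap.smul_apply]

theorem map_mul (hω : Symp ω) (α α' : Module.End F (Fin k → F)) (β β' : Module.End F B) :
    D.map hω α β * D.map hω α' β' = D.map hω (α * α') (β * β') := by
  refine D.ext hω fun w b => ?_
  rw [Module.End.mul_apply, map_ι, map_ι, map_ι, Module.End.mul_apply, Module.End.mul_apply]

theorem map_one (hω : Symp ω) : D.map hω 1 1 = 1 := by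
  refine D.ext hω fun w b => ?_
  rw [map_ι, Module.End.one_apply, Module.End.one_apply, Module.End.one_apply]

theorem map_ι_comp (hω : Symp ω) (α : Module.End F (Fin k → F)) (β : Module.End F B)
    (w : Fin k → F) : D.map hω α β ∘ₗ D.ι w = D.ι (α w) ∘ₗ β := by
  ext b
  exact D.map_ι hω α β w b

/-- The operator `c_u ⊗ s`, `c_u w = ω u w • u`. -/
def cs (u : Fin k → F) (s : Module.End F B) : Module.End F V := D.ι u ∘ₗ s ∘ₗ D.κ u

theorem cs_apply (u : Fin k → F) (s : Module.End F B) (v : V) :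
    D.cs u s v = D.ι u (s (D.κ u v)) := rfl

end TD

end Cfsg.Agent.H889.C7
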