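import Mathlib
import Cfsg.Agent.H889.C7.TD

/-!
Units of endomorphism rings, isometries of `ω`, transitivity, forms on a two-factor decomposition.
-/

set_option autoImplicit false
set_option linter.unusedSectionVars false

namespace Cfsg.Agent.H889.C7

open Module

variable {F : Type*} [Field F] {k : ℕ}

/-- The unit `1 + N`, `N ^ 2 = 0`. -/
def oneAdd {R : Type*} [Ring R] (N : R) (h : N * N = 0) : Rˣ where
  val := 1 + N
  inv := 1 - N
  val_inv := by rw [add_mul, mul_sub, mul_sub, h]; simp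
  inv_val := by rw [sub_mul, mul_add, mul_add, h]; simp

theorem oneAdd_val {R : Type*} [Ring R] (N : R) (h : N * N = 0) : (oneAdd N h).1 = 1 + N := rfl

theorem inv_apply {V : Type*} [AddCommGroup V] [Module F V] (g : (Module.End F V)ˣ) (v : V) :
    (g⁻¹).1 (g.1 v) = v := by
  rw [← Module.End.mul_apply, ← Units.val_mul, inv_mul_cancel, Units.val_one, Module.End.one_apply]

theorem apply_inv {V : Type*} [AddCommGroup V] [Module F V] (g : (Module.End F V)ˣ) (v : V) :
    g.1 ((g⁻¹).1 v) = v := by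
  rw [← Module.End.mul_apply, ← Units.val_mul, mul_inv_cancel, Units.val_one, Module.End.one_apply]

theorem mul_app {V : Type*} [AddCommGroup V] [Module F V] (g h : (Module.End F V)ˣ) (v : V) :
    (g * h).1 v = g.1 (h.1 v) := rfl

/-- `α` preserves `ω`. -/
def IsoW (ω : LinearMap.BilinForm F (Fin k → F)) (α : (Module.End F (Fin k → F))ˣ) : Prop :=
  ∀ u v, ω (α.1 u) (α.1 v) = ω u v

theorem IsoW.mul {ω : LinearMap.BilinForm F (Fin k → F)} {α β : (Module.End F (Fin k → F))ˣ}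
    (hα : IsoW ω α) (hβ : IsoW ω β) : IsoW ω (α * β) := fun u v => by
  rw [mul_app, mul_app, hα, hβ]

theorem IsoW.one {ω : LinearMap.BilinForm F (Fin k → F)} : IsoW ω 1 := fun _ _ => rfl

theorem IsoW.inv {ω : LinearMap.BilinForm F (Fin k → F)} {α : (Module.End F (Fin k → F))ˣ}
    (hα : IsoW ω α) : IsoW ω α⁻¹ := fun u v => by
  rw [← hα, apply_inv, apply_inv]

/-- The operator `w ↦ ω x w • y`. -/
def rk (ω : LinearMap.BilinForm F (Fin k → F)) (y x : Fin k → F) : Module.End F (Fin k → F) :=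
  (ω x).smulRight y

theorem rk_apply (ω : LinearMap.BilinForm F (Fin k → F)) (y x w : Fin k → F) :
    rk ω y x w = ω x w • y := rfl

theorem isoW_oneAdd {ω : LinearMap.BilinForm F (Fin k → F)} (N : Module.End F (Fin k → F))
    (h : N * N = 0) (hN : ∀ u v, ω (N u) v + ω u (N v) = 0) : IsoW ω (oneAdd N h) := by
  intro u v
  rw [oneAdd_val, LinearMap.add_apply, LinearMap.add_apply, Module.End.one_apply, Module.End.one_apply]
  simp only [map_add, LinearMap.add_apply]
  have h1 := hN u (N v)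
  have h2 : N (N v) = 0 := by rw [← Module.End.mul_apply, h]; rfl
  rw [h2, map_zero, add_zero] at h1
  have h3 := hN u v
  linear_combination h1 + h3

/-- The transvection `w ↦ w + c ω u w • u`. -/
theorem tv_sq {ω : LinearMap.BilinForm F (Fin k → F)} (hω : Symp ω) (c : F) (u : Fin k → F) :
    (c • rk ω u u) * (c • rk ω u u) = 0 := by
  refine LinearMap.ext fun w => ?_
  simp [rk_apply, hω.alt]

def tv {ω : LinearMap.BilinForm F (Fin k → F)} (hω : Symp ω) (c : F) (u : Fin k → F) :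
    (Module.End F (Fin k → F))ˣ := oneAdd (c • rk ω u u) (tv_sq hω c u)

theorem tv_apply {ω : LinearMap.BilinForm F (Fin k → F)} (hω : Symp ω) (c : F) (u w : Fin k → F) :
    (tv hω c u).1 w = w + (c * ω u w) • u := by
  rw [tv, oneAdd_val, LinearMap.add_apply, Module.End.one_apply, LinearMap.smul_apply, rk_apply, smul_smul]

theorem isoW_tv {ω : LinearMap.BilinForm F (Fin k → F)} (hω : Symp ω) (c : F) (u : Fin k → F) :
    IsoW ω (tv hω c u) := by
  apply isoW_oneAdd
  intro x y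
  simp only [LinearMap.smul_apply, rk_apply, map_smul, smul_eq_mul]
  rw [hω.skew x u]
  ring

/-- The element `w ↦ w + ω a w • n + ω n w • a` for `a ⊥ n`. -/
theorem sg_sq {ω : LinearMap.BilinForm F (Fin k → F)} (hω : Symp ω) {a n : Fin k → F} (h : ω a n = 0) :
    (rk ω n a + rk ω a n) * (rk ω n a + rk ω a n) = 0 := by
  have h' : ω n a = 0 := by rw [hω.skew, h, neg_zero]
  refine LinearMap.ext fun w => ?_
  simp [rk_apply, hω.alt, h, h']

def sg {ω : LinearMap.BilinForm F (Fin k → F)} (hω : Symp ω) {a n : Fin k → F} (h : ω a n = 0) :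
    (Module.End F (Fin k → F))ˣ := oneAdd (rk ω n a + rk ω a n) (sg_sq hω h)

theorem sg_apply {ω : LinearMap.BilinForm F (Fin k → F)} (hω : Symp ω) {a n : Fin k → F}
    (h : ω a n = 0) (w : Fin k → F) : (sg hω h).1 w = w + (ω a w • n + ω n w • a) := rfl

theorem isoW_sg {ω : LinearMap.BilinForm F (Fin k → F)} (hω : Symp ω) {a n : Fin k → F}
    (h : ω a n = 0) : IsoW ω (sg hω h) := by
  apply isoW_oneAdd
  intro x y
  simp only [LinearMap.add_apply, rk_apply, map_add, map_smul, LinearMap.smul_apply, smul_eq_mul]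
  rw [hω.skew x n, hω.skew x a]
  ring

section Trans

variable {ω : LinearMap.BilinForm F (Fin k → F)} (hω : Symp ω)
include hω

/-- If `ω x y ≠ 0` some isometry maps `x` to `y` and fixes `(y - x)^⊥`. -/
theorem exists_tv {x y : Fin k → F} (h : ω x y ≠ 0) :
    ∃ α, IsoW ω α ∧ α.1 x = y ∧ ∀ s, ω s x = ω s y → α.1 s = s := by
  refine ⟨tv hω (ω y x)⁻¹ (y - x), isoW_tv _ _ _, ?_, ?_⟩
  · have h' : ω y x ≠ 0 := by rw [hω.skew]; exact neg_ne_zero.2 h
    rw [tv_apply, map_sub, LinearMap.sub_apply, hω.alt, sub_zero, inv_mul_cancel₀ h', one_smul]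
    abel
  · intro s hs
    rw [tv_apply, map_sub, LinearMap.sub_apply, hω.skew y s, hω.skew x s, hs, sub_self, mul_zero,
      zero_smul, add_zero]

/-- Transitivity of the stabiliser of `a` on `a^⊥ \ ⟨a⟩`; `a = 0` is allowed. -/
theorem exists_iso {a x y : Fin k → F} (hx : ω a x = 0) (hy : ω a y = 0) (hx' : ∀ c : F, x ≠ c • a)
    (hy' : ∀ c : F, y ≠ c • a) : ∃ α, IsoW ω α ∧ α.1 a = a ∧ α.1 x = y := by
  have key : ∀ z, (∀ c : F, z ≠ c • a) → ∃ n, ω a n = 0 ∧ ω z n ≠ 0 := by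
    intro z hz
    by_cases ha : a = 0
    · have hz0 : z ≠ 0 := by simpa using hz 0
      obtain ⟨n, hn⟩ := hω.exists_pair hz0
      exact ⟨n, by rw [ha]; simp, by rw [hn]; exact one_ne_zero⟩
    · by_contra hcon
      push Not at hcon
      obtain ⟨c, hc⟩ := hω.eq_smul_of_perp ha hcon
      exact hz c hc
  have step : ∀ x y : Fin k → F, ω a x = 0 → ω a y = 0 → ω x y ≠ 0 →
      ∃ α, IsoW ω α ∧ α.1 a = a ∧ α.1 x = y := by
    intro x y hx hy hxy
    obtain ⟨α, h1, h2, h3⟩ := exists_tv hω hxy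
    exact ⟨α, h1, h3 a (by rw [hx, hy]), h2⟩
  by_cases hxy : ω x y = 0
  · obtain ⟨z, hz, hxz, hzy⟩ : ∃ z, ω a z = 0 ∧ ω x z ≠ 0 ∧ ω z y ≠ 0 := by
      obtain ⟨z1, h1, h1'⟩ := key x hx'
      obtain ⟨z2, h2, h2'⟩ := key y hy'
      by_cases c1 : ω y z1 = 0
      · by_cases c2 : ω x z2 = 0
        · refine ⟨z1 + z2, by rw [map_add, h1, h2, add_zero], by rw [map_add, c2, add_zero]; exact h1', ?_⟩
          rw [hω.skew, map_add, c1, zero_add]
          exact neg_ne_zero.2 h2'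
        · exact ⟨z2, h2, c2, by rw [hω.skew]; exact neg_ne_zero.2 h2'⟩
      · exact ⟨z1, h1, h1', by rw [hω.skew]; exact neg_ne_zero.2 c1⟩
    obtain ⟨α, a1, a2, a3⟩ := step x z hx hz hxz
    obtain ⟨β, b1, b2, b3⟩ := step z y hz hy hzy
    exact ⟨β * α, b1.mul a1, by rw [mul_app, a2, b2], by rw [mul_app, a3, b3]⟩
  · exact step x y hx hy hxy

/-- Transitivity on non-zero vectors. -/
theorem exists_iso_of_ne {x y : Fin k → F} (hx : x ≠ 0) (hy : y ≠ 0) :
    ∃ α, IsoW ω α ∧ α.1 x = y := by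
  obtain ⟨α, h1, _, h3⟩ := exists_iso hω (a := 0) (x := x) (y := y) (by simp) (by simp)
    (fun c => by simpa using hx) (fun c => by simpa using hy)
  exact ⟨α, h1, h3⟩

end Trans

namespace TD

variable {ω : LinearMap.BilinForm F (Fin k → F)} {B V : Type*} [AddCommGroup B] [Module F B]
  [AddCommGroup V] [Module F V] (D : TD ω B V)

/-- `α ⊗ β` as a unit. -/
noncomputable def mapU (hω : Symp ω) (α : (Module.End F (Fin k → F))ˣ) (β : (Module.End F B)ˣ) :
    (Module.End F V)ˣ where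
  val := D.map hω α.1 β.1
  inv := D.map hω (α⁻¹).1 (β⁻¹).1
  val_inv := by
    rw [map_mul, ← Units.val_mul, ← Units.val_mul, mul_inv_cancel, mul_inv_cancel, Units.val_one,
      Units.val_one, map_one]
  inv_val := by
    rw [map_mul, ← Units.val_mul, ← Units.val_mul, inv_mul_cancel, inv_mul_cancel, Units.val_one,
      Units.val_one, map_one]

theorem mapU_val (hω : Symp ω) (α : (Module.End F (Fin k → F))ˣ) (β : (Module.End F B)ˣ) :
    (D.mapU hω α β).1 = D.map hω α.1 β.1 := rfl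

theorem mapU_ι (hω : Symp ω) (α : (Module.End F (Fin k → F))ˣ) (β : (Module.End F B)ˣ)
    (w : Fin k → F) (b : B) : (D.mapU hω α β).1 (D.ι w b) = D.ι (α.1 w) (β.1 b) :=
  D.map_ι hω _ _ w b

theorem mapU_mul (hω : Symp ω) (α α' : (Module.End F (Fin k → F))ˣ) (β β' : (Module.End F B)ˣ) :
    D.mapU hω α β * D.mapU hω α' β' = D.mapU hω (α * α') (β * β') :=
  Units.ext (D.map_mul hω _ _ _ _)

theorem mapU_one (hω : Symp ω) : D.mapU hω 1 1 = 1 := Units.ext (D.map_one hω)

theorem mapU_inv (hω : Symp ω) (α : (Module.End F (Fin k → F))ˣ) (β : (Module.End F B)ˣ) :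
    (D.mapU hω α β)⁻¹ = D.mapU hω α⁻¹ β⁻¹ := by
  rw [inv_eq_iff_mul_eq_one, mapU_mul, mul_inv_cancel, mul_inv_cancel, mapU_one]

/-- Forms on `B` and `V` with `fV = ω ⊗ fB`. -/
structure Forms (fB : LinearMap.BilinForm F B) (fV : LinearMap.BilinForm F V) : Prop where
  adj : ∀ w b v, fV (D.ι w b) v = fB b (D.κ w v)
  adj' : ∀ w b v, fV v (D.ι w b) = -fB (D.κ w v) b
  ndl : ∀ b, (∀ b', fB b b' = 0) → b = 0
  ndr : ∀ b', (∀ b, fB b b' = 0) → b' = 0

namespace Forms

variable {D} {fB : LinearMap.BilinForm F B} {fV : LinearMap.BilinForm F V} (hf : D.Forms fB fV)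
include hf

theorem ιι (w w' : Fin k → F) (b b' : B) :
    fV (D.ι w b) (D.ι w' b') = ω w w' * fB b b' := by
  rw [hf.adj, D.κι, map_smul, smul_eq_mul]

theorem vndr (v' : V) (h : ∀ v, fV v v' = 0) : v' = 0 := by
  apply D.inj
  intro u
  apply hf.ndr
  intro b
  rw [← hf.adj, h]

theorem vndl (v : V) (h : ∀ v', fV v v' = 0) : v = 0 := by
  apply D.inj
  intro u
  apply hf.ndl
  intro b
  have := hf.adj' u b v
  rw [h] at this
  rw [← neg_eq_zero, ← this]

/-- `κ_α` for a similitude. -/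
theorem κ_mapU (hω : Symp ω) {α : (Module.End F (Fin k → F))ˣ} (hα : IsoW ω α) (β : (Module.End F B)ˣ)
    (u : Fin k → F) (v : V) :
    D.κ (α.1 u) ((D.mapU hω α β).1 v) = β.1 (D.κ u v) := by
  have h : D.κ (α.1 u) ∘ₗ (D.mapU hω α β).1 = β.1 ∘ₗ D.κ u := by
    refine D.ext hω fun w b => ?_
    rw [LinearMap.comp_apply, LinearMap.comp_apply, mapU_ι, D.κι, D.κι, hα, map_smul]
  exact LinearMap.congr_fun h v

end Forms

end TD

end Cfsg.Agent.H889.C7
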