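import Mathlib

/-!
Sums over sets with a free action.
-/

set_option autoImplicit false

namespace Cfsg.Agent.H889.C7

/-- If the finite additive group `A` acts freely on `S` and `φ` is equivariant then the sum of `φ` over `S` is a
trace. -/
theorem free_sum {A Q X : Type*} [AddGroup A] [Fintype A] [DecidableEq Q] [AddCommGroup X]
    (act : A → Q → Q) (hact0 : ∀ q, act 0 q = q) (hact : ∀ a b q, act (a + b) q = act a (act b q))
    (σ : A → X →+ X) (φ : Q → X) (hφ : ∀ a q, φ (act a q) = σ a (φ q))
    (S : Finset Q) (hS : ∀ a, ∀ q ∈ S, act a q ∈ S) (hfree : ∀ a, ∀ q ∈ S, act a q = q → a = 0) :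
    ∃ y, ∑ q ∈ S, φ q = ∑ a, σ a y := by
  induction hn : S.card using Nat.strong_induction_on generalizing S with
  | _ n ih =>
    rcases S.eq_empty_or_nonempty with rfl | ⟨q, hq⟩
    · exact ⟨0, by simp⟩
    · set O : Finset Q := Finset.univ.image fun a => act a q with hO
      have hinj : Function.Injective fun a => act a q := by
        intro a b hab
        have h1 : act (-b + a) q = q := by
          rw [hact]
          change act (-b) ((fun a => act a q) a) = q
          rw [hab]
          change act (-b) (act b q) = q
          rw [← hact, neg_add_cancel, hact0]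
        have h2 := hfree _ q hq h1
        rw [neg_add_eq_zero] at h2
        exact h2.symm
      have hOS : O ⊆ S := by
        intro r hr
        obtain ⟨a, _, rfl⟩ := Finset.mem_image.1 hr
        exact hS a q hq
      have hqO : q ∈ O := Finset.mem_image.2 ⟨0, Finset.mem_univ _, hact0 q⟩
      obtain ⟨y, hy⟩ := ih (S \ O).card (by
          rw [← hn]
          exact Finset.card_lt_card (Finset.ssubset_iff_subset_ne.2 ⟨Finset.sdiff_subset, fun h => by
            have : q ∈ S \ O := by rw [h]; exact hq
            exact (Finset.mem_sdiff.1 this).2 hqO⟩)) (S \ O) (by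
          intro a r hr
          obtain ⟨h1, h2⟩ := Finset.mem_sdiff.1 hr
          refine Finset.mem_sdiff.2 ⟨hS a r h1, fun h3 => h2 ?_⟩
          obtain ⟨b, _, hb⟩ := Finset.mem_image.1 h3
          refine Finset.mem_image.2 ⟨-a + b, Finset.mem_univ _, ?_⟩
          have hb' : act b q = act a r := hb
          rw [hact, hb', ← hact, neg_add_cancel, hact0]) (by
          intro a r hr h
          exact hfree a r (Finset.mem_sdiff.1 hr).1 h) rfl
      refine ⟨φ q + y, ?_⟩
      rw [← Finset.sum_sdiff hOS, hy, hO, Finset.sum_image (fun a _ b _ h => hinj h), add_comm]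
      simp only [hφ, map_add, Finset.sum_add_distrib]

end Cfsg.Agent.H889.C7
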