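import Mathlib
import Cfsg.Agent.H889.C7.Basic

/-!
The layer theorem: an element of `M` which is trivial on `a ⊗ B`, `(a⊥ ⊗ B) / (a ⊗ B)`, `V / (a⊥ ⊗ B)` lies in
`Sp(W) ⊗ 1`, if all `1 + c_a ⊗ s` in `M` have `s` scalar.
-/

set_option autoImplicit false
set_option linter.unusedSectionVars false
set_option linter.unusedVariables false

namespace Cfsg.Agent.H889.C7

open Module

variable {F : Type*} [Field F] {k : ℕ} {ω : LinearMap.BilinForm F (Fin k → F)} {B V : Type*}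
  [AddCommGroup B] [Module F B] [AddCommGroup V] [Module F V]

/-- The standing hypotheses on `M`. -/
structure GoodM (hω : Symp ω) (D : TD ω B V) (fB : LinearMap.BilinForm F B)
    (fV : LinearMap.BilinForm F V) (M : Subgroup (Module.End F V)ˣ) : Prop where
  isom : ∀ g ∈ M, ∀ v w, fV (g.1 v) (g.1 w) = fV v w
  sp : ∀ α, IsoW ω α → D.mapU hω α 1 ∈ M
  caseI : ∀ a, a ≠ 0 → ∀ s : Module.End F B, ∀ g ∈ M, g.1 = 1 + D.cs a s → ∃ τ : F, s = τ • 1

/-- Triviality of the layer. -/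
def TrivT (hω : Symp ω) (D : TD ω B V) (fB : LinearMap.BilinForm F B)
    (M : Subgroup (Module.End F V)ˣ) : Prop :=
  ∀ T : Submodule F (Module.End F B), (1 : Module.End F B) ∈ T →
    (∀ β : (Module.End F B)ˣ, D.mapU hω 1 β ∈ M → ∀ s ∈ T, β.1 * s * (β⁻¹).1 ∈ T) →
    (∀ s ∈ T, ∀ s' ∈ T, ∃ τ : F, ∀ b b', fB (s b) (s' b') + fB (s' b) (s b') = τ * fB b b') →
    ∀ s ∈ T, ∃ τ : F, s = τ • 1

/-- `g` is trivial on the three sections of `0 ≤ a ⊗ B ≤ a⊥ ⊗ B ≤ V`. -/
structure InU (D : TD ω B V) (a : Fin k → F) (g : (Module.End F V)ˣ) : Prop where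
  fix : ∀ b, g.1 (D.ι a b) = D.ι a b
  kap : ∀ v, D.κ a (g.1 v) = D.κ a v
  mid : ∀ v, D.κ a v = 0 → ∃ b, g.1 v = v + D.ι a b

namespace InU

variable {D : TD ω B V} {a : Fin k → F} {g h : (Module.End F V)ˣ}

theorem one : InU D a 1 := ⟨fun _ => rfl, fun _ => rfl, fun v _ => ⟨0, by simp⟩⟩

theorem mul (hg : InU D a g) (hh : InU D a h) : InU D a (g * h) := by
  refine ⟨fun b => ?_, fun v => ?_, fun v hv => ?_⟩
  · rw [mul_app, hh.fix, hg.fix]
  · rw [mul_app, hg.kap, hh.kap]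
  · obtain ⟨b, hb⟩ := hh.mid v hv
    obtain ⟨b', hb'⟩ := hg.mid v hv
    exact ⟨b' + b, by rw [mul_app, hb, map_add, hb', hg.fix, map_add, add_assoc]⟩

theorem inv (hg : InU D a g) : InU D a g⁻¹ := by
  refine ⟨fun b => ?_, fun v => ?_, fun v hv => ?_⟩
  · conv_lhs => rw [← hg.fix b]
    rw [inv_apply]
  · conv_rhs => rw [← apply_inv g v]
    rw [hg.kap]
  · have h1 : D.κ a ((g⁻¹).1 v) = 0 := by
      have := hg.kap ((g⁻¹).1 v)
      rw [apply_inv] at this
      rw [← this, hv]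
    obtain ⟨b, hb⟩ := hg.mid _ h1
    rw [apply_inv] at hb
    exact ⟨-b, by rw [map_neg]; rw [eq_add_neg_iff_add_eq, ← hb]⟩

end InU

namespace TD

variable (D : TD ω B V)

/-- The symbol `κ m (g - 1) ι a'`. -/
def sig (a' : Fin k → F) (g : (Module.End F V)ˣ) (m : Fin k → F) : Module.End F B :=
  (D.κ m) ∘ₗ (g.1 - 1) ∘ₗ (D.ι a')

theorem sig_apply (a' : Fin k → F) (g : (Module.End F V)ˣ) (m : Fin k → F) (b : B) :
    D.sig a' g m b = D.κ m (g.1 (D.ι a' b)) - D.κ m (D.ι a' b) := by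
  rw [sig, LinearMap.comp_apply, LinearMap.comp_apply, LinearMap.sub_apply, Module.End.one_apply, map_sub]

theorem sig_add (a' : Fin k → F) (g : (Module.End F V)ˣ) (m m' : Fin k → F) :
    D.sig a' g (m + m') = D.sig a' g m + D.sig a' g m' := by
  rw [sig, sig, sig, map_add, LinearMap.add_comp]

theorem sig_smul (a' : Fin k → F) (g : (Module.End F V)ˣ) (c : F) (m : Fin k → F) :
    D.sig a' g (c • m) = c • D.sig a' g m := by
  rw [sig, sig, map_smul, LinearMap.smul_comp]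

variable {D} {a a' : Fin k → F}

theorem sig_self {g : (Module.End F V)ˣ} (hg : InU D a g) : D.sig a' g a = 0 := by
  refine LinearMap.ext fun b => ?_
  rw [sig_apply, hg.kap, sub_self, LinearMap.zero_apply]

theorem sig_mul (hω : Symp ω) {g h : (Module.End F V)ˣ} (hg : InU D a g) (hh : InU D a h)
    {m : Fin k → F} (hm : ω a m = 0) : D.sig a' (g * h) m = D.sig a' g m + D.sig a' h m := by
  have hm' : ω m a = 0 := by rw [hω.skew, hm, neg_zero]
  refine LinearMap.ext fun b => ?_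
  rw [LinearMap.add_apply, sig_apply, sig_apply, sig_apply, mul_app]
  obtain ⟨b', hb'⟩ := hg.mid (h.1 (D.ι a' b) - D.ι a' b) (by rw [map_sub, hh.kap, sub_self])
  have h1 : g.1 (h.1 (D.ι a' b)) = g.1 (D.ι a' b) + (h.1 (D.ι a' b) - D.ι a' b + D.ι a b') := by
    rw [← hb', ← map_add]
    congr 1
    abel
  rw [h1, map_add, map_add, map_sub, D.κι m a, hm', zero_smul]
  abel

theorem sig_one : D.sig a' 1 = 0 := by
  funext m
  rw [sig, Units.val_one, sub_self, LinearMap.zero_comp, LinearMap.comp_zero]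
  rfl

theorem sig_inv (hω : Symp ω) {g : (Module.End F V)ˣ} (hg : InU D a g)
    {m : Fin k → F} (hm : ω a m = 0) : D.sig a' g⁻¹ m = -D.sig a' g m := by
  have h := sig_mul (a' := a') hω hg hg.inv hm
  rw [mul_inv_cancel, sig_one, Pi.zero_apply] at h
  exact eq_neg_of_add_eq_zero_right h.symm

end TD

section Conj

variable {D : TD ω B V} {a a' : Fin k → F} {fB : LinearMap.BilinForm F B}
  {fV : LinearMap.BilinForm F V}

theorem κ_mapU (hω : Symp ω) (D : TD ω B V) {α : (Module.End F (Fin k → F))ˣ} (hα : IsoW ω α)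
    (β : (Module.End F B)ˣ) (u : Fin k → F) (v : V) :
    D.κ (α.1 u) ((D.mapU hω α β).1 v) = β.1 (D.κ u v) := by
  have h : D.κ (α.1 u) ∘ₗ (D.mapU hω α β).1 = β.1 ∘ₗ D.κ u := by
    refine D.ext hω fun w b => ?_
    rw [LinearMap.comp_apply, LinearMap.comp_apply, TD.mapU_ι, D.κι, D.κι, hα, map_smul]
  exact LinearMap.congr_fun h v

theorem κ_mapU' (hω : Symp ω) (D : TD ω B V) {α : (Module.End F (Fin k → F))ˣ} (hα : IsoW ω α)
    (β : (Module.End F B)ˣ) (u : Fin k → F) (v : V) :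
    D.κ u ((D.mapU hω α β).1 v) = β.1 (D.κ ((α⁻¹).1 u) v) := by
  rw [← κ_mapU hω D hα, apply_inv]

theorem InU.conj (hω : Symp ω) {g : (Module.End F V)ˣ} (hg : InU D a g)
    {α : (Module.End F (Fin k → F))ˣ} (hα : IsoW ω α) (hαa : α.1 a = a) (β : (Module.End F B)ˣ) :
    InU D a (D.mapU hω α β * g * (D.mapU hω α β)⁻¹) := by
  have hαa' : (α⁻¹).1 a = a := by
    conv_lhs => rw [← hαa]
    rw [inv_apply]
  have hk : ∀ v, D.κ a ((D.mapU hω α β).1 v) = β.1 (D.κ a v) := fun v => by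
    rw [κ_mapU' hω D hα, hαa']
  have hk' : ∀ v, D.κ a ((D.mapU hω α⁻¹ β⁻¹).1 v) = (β⁻¹).1 (D.κ a v) := fun v => by
    rw [κ_mapU' hω D hα.inv, inv_inv, hαa]
  rw [D.mapU_inv hω]
  refine ⟨fun b => ?_, fun v => ?_, fun v hv => ?_⟩
  · rw [mul_app, mul_app, TD.mapU_ι, hαa', hg.fix, TD.mapU_ι, hαa, apply_inv]
  · rw [mul_app, mul_app, hk, hg.kap, hk', apply_inv]
  · rw [mul_app, mul_app]
    obtain ⟨b, hb⟩ := hg.mid ((D.mapU hω α⁻¹ β⁻¹).1 v) (by rw [hk', hv, map_zero])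
    refine ⟨β.1 b, ?_⟩
    rw [hb, map_add, TD.mapU_ι, hαa, ← D.mapU_inv hω, apply_inv]

/-- Conjugation by `α ⊗ β`, `α a = a`. -/
theorem sig_conj (hω : Symp ω) {g : (Module.End F V)ˣ} (hg : InU D a g) (haa' : ω a a' = 1)
    {α : (Module.End F (Fin k → F))ˣ} (hα : IsoW ω α) (hαa : α.1 a = a) (β : (Module.End F B)ˣ)
    {m : Fin k → F} (hm : ω a m = 0) :
    D.sig a' (D.mapU hω α β * g * (D.mapU hω α β)⁻¹) (α.1 m) = β.1 * D.sig a' g m * (β⁻¹).1 := by
  have hm' : ω m a = 0 := by rw [hω.skew, hm, neg_zero]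
  refine LinearMap.ext fun b => ?_
  rw [Module.End.mul_apply, Module.End.mul_apply, TD.sig_apply, TD.sig_apply, D.mapU_inv hω, mul_app, mul_app,
    κ_mapU hω D hα, TD.mapU_ι, D.κι (α.1 m) a' b, map_sub, D.κι m a']
  set n := (α⁻¹).1 a' - a' with hn
  have hn0 : ω a n = 0 := by
    rw [hn, map_sub, ← hα, hαa, apply_inv, sub_self]
  have e : (α⁻¹).1 a' = a' + n := by rw [hn]; abel
  obtain ⟨b', hb'⟩ := hg.mid (D.ι n ((β⁻¹).1 b)) (by rw [D.κι, hn0, zero_smul])
  have e2 : ω (α.1 m) a' = ω m a' + ω m n := by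
    rw [← map_add, ← e]
    rw [← hα m, apply_inv]
  have e3 : D.κ m (D.ι n ((β⁻¹).1 b) + D.ι a b') = ω m n • (β⁻¹).1 b := by
    rw [map_add, D.κι, D.κι, hm', zero_smul, add_zero]
  rw [e, map_add, LinearMap.add_apply, map_add, hb', map_add, map_add, e3, map_smul, map_smul, apply_inv,
    e2, add_smul]
  abel

end Conj

section Elements

variable {D : TD ω B V} {a a' : Fin k → F}

theorem mapU_sg_val (hω : Symp ω) (D : TD ω B V) {n : Fin k → F} (hn : ω a n = 0) :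
    (D.mapU hω (sg hω hn) 1).1 = 1 + (D.ι n ∘ₗ D.κ a + D.ι a ∘ₗ D.κ n) := by
  refine D.ext hω fun w b => ?_
  rw [TD.mapU_ι, sg_apply, Units.val_one]
  simp only [Module.End.one_apply, LinearMap.add_apply, LinearMap.comp_apply, D.κι, map_add, map_smul,
    LinearMap.smul_apply]

theorem mapU_tv_val (hω : Symp ω) (D : TD ω B V) (c : F) (u : Fin k → F) :
    (D.mapU hω (tv hω c u) 1).1 = 1 + D.cs u (c • 1) := by
  refine D.ext hω fun w b => ?_
  rw [TD.mapU_ι, tv_apply, Units.val_one]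
  simp only [Module.End.one_apply, LinearMap.add_apply, TD.cs_apply, D.κι, map_add, map_smul,
    LinearMap.smul_apply, smul_smul]
  rw [mul_comm]

theorem sg_fix (hω : Symp ω) {n : Fin k → F} (hn : ω a n = 0) : (sg hω hn).1 a = a := by
  rw [sg_apply, hω.alt, hω.skew n, hn, neg_zero]; simp

theorem inU_sg (hω : Symp ω) (D : TD ω B V) {n : Fin k → F} (hn : ω a n = 0) :
    InU D a (D.mapU hω (sg hω hn) 1) := by
  refine ⟨fun b => ?_, fun v => ?_, fun v hv => ?_⟩
  · rw [TD.mapU_ι, sg_fix, Units.val_one, Module.End.one_apply]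
  · rw [κ_mapU' hω D (isoW_sg hω hn)]
    have : ((sg hω hn)⁻¹).1 a = a := by
      have h1 := inv_apply (sg hω hn) a
      rwa [sg_fix] at h1
    rw [this]; rfl
  · refine ⟨D.κ n v, ?_⟩
    rw [mapU_sg_val]
    simp only [Module.End.one_apply, LinearMap.add_apply, LinearMap.comp_apply, hv, map_zero, zero_add]

theorem sig_sg (hω : Symp ω) (D : TD ω B V) {n : Fin k → F} (hn : ω a n = 0) (haa' : ω a a' = 1)
    {m : Fin k → F} (hm : ω a m = 0) :
    D.sig a' (D.mapU hω (sg hω hn) 1) m = -(ω n m • 1) := by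
  have hm' : ω m a = 0 := by rw [hω.skew, hm, neg_zero]
  refine LinearMap.ext fun b => ?_
  rw [TD.sig_apply, TD.mapU_ι, sg_apply, Units.val_one, Module.End.one_apply, haa', map_add,
    LinearMap.add_apply, map_add, add_sub_cancel_left, D.κι, map_add, map_smul, map_smul, hm', smul_zero,
    add_zero, one_smul, LinearMap.neg_apply, LinearMap.smul_apply, Module.End.one_apply, hω.skew m n,
    neg_smul]

end Elements

section Main

variable {D : TD ω B V} {a a' : Fin k → F} {fB : LinearMap.BilinForm F B}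
  {fV : LinearMap.BilinForm F V} {M : Subgroup (Module.End F V)ˣ}

/-- In the notation of an element of the unipotent radical with trivial symbol. -/
theorem eq_cs_of_sig_zero (hω : Symp ω) (hf : D.Forms fB fV) (haa' : ω a a' = 1)
    {g : (Module.End F V)ˣ} (hg : InU D a g) (hiso : ∀ v w, fV (g.1 v) (g.1 w) = fV v w)
    (hs : ∀ m, ω a m = 0 → D.sig a' g m = 0) : ∃ r, g.1 = 1 + D.cs a r := by
  have ha : a ≠ 0 := by
    rintro rfl
    simp at haa'
  -- `(g - 1) ι a' = ι a r`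
  have h1 : ∀ b, ∃ b', g.1 (D.ι a' b) - D.ι a' b = D.ι a b' := fun b => by
    apply D.exists_of_perp hω ha
    intro m hm
    have := LinearMap.congr_fun (hs m hm) b
    rwa [TD.sig_apply, LinearMap.zero_apply, ← map_sub] at this
  have ha'a : ω a' a = -1 := by rw [hω.skew, haa']
  set r : Module.End F B := -(D.κ a' ∘ₗ (g.1 - 1) ∘ₗ D.ι a') with hr
  have hr1 : ∀ b, g.1 (D.ι a' b) = D.ι a' b + D.ι a (r b) := fun b => by
    obtain ⟨b', hb'⟩ := h1 b
    have e : r b = b' := by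
      rw [hr, LinearMap.neg_apply, LinearMap.comp_apply, LinearMap.comp_apply, LinearMap.sub_apply,
        Module.End.one_apply, hb', D.κι, ha'a, neg_smul, one_smul, neg_neg]
    rw [e, ← hb']
    abel
  have hker : ∀ v, D.κ a v = 0 → g.1 v = v := by
    intro v hv
    obtain ⟨b, hb⟩ := hg.mid v hv
    have hb0 : b = 0 := by
      apply hf.ndl
      intro b'
      have h2 := hiso v (D.ι a' b')
      rw [hb, hr1, map_add, map_add, LinearMap.add_apply, LinearMap.add_apply, hf.ιι, hf.ιι, haa', hω.alt,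
        zero_mul, add_zero, hf.adj' a, hv, map_zero, LinearMap.zero_apply, neg_zero, add_zero, one_mul] at h2
      linear_combination h2
    rw [hb, hb0, map_zero, add_zero]
  refine ⟨r, D.ext hω fun w b => ?_⟩
  rw [LinearMap.add_apply, Module.End.one_apply, TD.cs_apply, D.κι, map_smul, map_smul]
  have e : w = (w - ω a w • a') + ω a w • a' := by abel
  have hk : D.κ a (D.ι (w - ω a w • a') b) = 0 := by
    rw [D.κι, map_sub, map_smul, haa', smul_eq_mul, mul_one, sub_self, zero_smul]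
  have h3 : D.ι w b = D.ι (w - ω a w • a') b + ω a w • D.ι a' b := by
    conv_lhs => rw [e]
    rw [map_add, LinearMap.add_apply, map_smul, LinearMap.smul_apply]
  rw [h3, map_add, hker _ hk, map_smul, hr1, smul_add]
  abel

/-- The commutator constraint. -/
theorem constraint (hω : Symp ω) (hf : D.Forms fB fV) (hM : GoodM hω D fB fV M) (haa' : ω a a' = 1)
    {g h : (Module.End F V)ˣ} (hgM : g ∈ M) (hhM : h ∈ M) (hg : InU D a g) (hh : InU D a h) :
    ∃ τ : F, ∀ b b', fV (g.1 (D.ι a' b) - D.ι a' b) (h.1 (D.ι a' b') - D.ι a' b') -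
      fV (h.1 (D.ι a' b) - D.ι a' b) (g.1 (D.ι a' b') - D.ι a' b') = τ * fB b b' := by
  have ha : a ≠ 0 := by
    rintro rfl
    simp at haa'
  set c := g * h * g⁻¹ * h⁻¹ with hc
  have hcM : c ∈ M := M.mul_mem (M.mul_mem (M.mul_mem hgM hhM) (M.inv_mem hgM)) (M.inv_mem hhM)
  have hcU : InU D a c := ((hg.mul hh).mul hg.inv).mul hh.inv
  obtain ⟨r, hr⟩ := eq_cs_of_sig_zero hω hf haa' hcU (hM.isom c hcM) (by
    intro m hm
    rw [hc, TD.sig_mul hω ((hg.mul hh).mul hg.inv) hh.inv hm, TD.sig_mul hω (hg.mul hh) hg.inv hm,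
      TD.sig_mul hω hg hh hm, TD.sig_inv hω hg hm, TD.sig_inv hω hh hm]
    abel)
  obtain ⟨τ, hτ⟩ := hM.caseI a ha r c hcM hr
  refine ⟨τ, fun b b' => ?_⟩
  have hcomm : g * h = c * (h * g) := by rw [hc]; group
  have e1 : g.1 (h.1 (D.ι a' b)) = h.1 (g.1 (D.ι a' b)) + D.ι a (τ • b) := by
    have := congrArg (fun x : (Module.End F V)ˣ => x.1 (D.ι a' b)) hcomm
    simp only [mul_app] at this
    rw [this, hr, LinearMap.add_apply, Module.End.one_apply, TD.cs_apply, hh.kap, hg.kap, D.κι, haa', one_smul,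
      hτ, LinearMap.smul_apply, Module.End.one_apply]
  -- the inner products
  have hgen : ∀ x y : (Module.End F V)ˣ, x ∈ M → InU D a x → InU D a y →
      fV (x.1 (y.1 (D.ι a' b))) (D.ι a' b') =
        fV (D.ι a' b) (D.ι a' b') + fV (x.1 (D.ι a' b) - D.ι a' b) (D.ι a' b') +
          fV (y.1 (D.ι a' b) - D.ι a' b) (D.ι a' b') -
          fV (y.1 (D.ι a' b) - D.ι a' b) (x.1 (D.ι a' b') - D.ι a' b') := by
    intro x y hx hxU hyU
    -- write `x⁻¹ ι a' b' = ι a' b' - p b' + ι a z`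
    obtain ⟨z, hz⟩ := hxU.mid (x.1 (D.ι a' b') - D.ι a' b') (by rw [map_sub, hxU.kap, sub_self])
    have h2 := hM.isom x hx (y.1 (D.ι a' b)) (D.ι a' b' - (x.1 (D.ι a' b') - D.ι a' b') + D.ι a z)
    have h3 : x.1 (D.ι a' b' - (x.1 (D.ι a' b') - D.ι a' b') + D.ι a z) = D.ι a' b' := by
      rw [map_add, map_sub, hz, hxU.fix]
      abel
    have h4 := hM.isom x hx (D.ι a' b) (D.ι a' b' - (x.1 (D.ι a' b') - D.ι a' b') + D.ι a z)
    rw [h3] at h2 h4
    have h5 : fV (y.1 (D.ι a' b) - D.ι a' b) (D.ι a z) = 0 := by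
      rw [hf.adj', map_sub, hyU.kap, sub_self, map_zero, LinearMap.zero_apply, neg_zero]
    simp only [map_add, map_sub, LinearMap.sub_apply] at h2 h4 h5 ⊢
    linear_combination h2 - h4 + h5
  have e2 := hgen g h hgM hg hh
  have e3 := hgen h g hhM hh hg
  have e4 : fV (D.ι a (τ • b)) (D.ι a' b') = τ * fB b b' := by
    rw [hf.ιι, haa', one_mul, map_smul, LinearMap.smul_apply, smul_eq_mul]
  rw [e1, map_add, LinearMap.add_apply, e4] at e2
  linear_combination e3 - e2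

/-- **Layer theorem.** -/
theorem layer [Nontrivial B] (hω : Symp ω) (hf : D.Forms fB fV) (hM : GoodM hω D fB fV M)
    (hT : TrivT hω D fB M) (haa' : ω a a' = 1)
    {g : (Module.End F V)ˣ} (hgM : g ∈ M) (hg : InU D a g) :
    ∃ α, IsoW ω α ∧ α.1 a = a ∧ g = D.mapU hω α 1 := by
  have ha : a ≠ 0 := by
    rintro rfl
    simp at haa'
  -- the submodule
  let T : Submodule F (Module.End F B) :=
    { carrier := {s | ∀ n, ω a n = 0 → ∃ h ∈ M, InU D a h ∧ ∀ m, ω a m = 0 →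
        D.sig a' h m = ω n m • s}
      zero_mem' := fun n hn => ⟨1, M.one_mem, InU.one, fun m _ => by
        rw [TD.sig_one, smul_zero]; rfl⟩
      add_mem' := by
        rintro s s' hs hs' n hn
        obtain ⟨h, h1, h2, h3⟩ := hs n hn
        obtain ⟨h', h1', h2', h3'⟩ := hs' n hn
        exact ⟨h * h', M.mul_mem h1 h1', h2.mul h2', fun m hm => by
          rw [TD.sig_mul hω h2 h2' hm, h3 m hm, h3' m hm, smul_add]⟩
      smul_mem' := by
        rintro c s hs n hn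
        obtain ⟨h, h1, h2, h3⟩ := hs (c • n) (by rw [map_smul, hn, smul_zero])
        exact ⟨h, h1, h2, fun m hm => by
          rw [h3 m hm, map_smul, LinearMap.smul_apply, smul_assoc, smul_comm]⟩ }
  have hT1 : (1 : Module.End F B) ∈ T := by
    intro n hn
    have hn' : ω a (-n) = 0 := by rw [map_neg, hn, neg_zero]
    refine ⟨D.mapU hω (sg hω hn') 1, hM.sp _ (isoW_sg hω hn'), inU_sg hω D hn', fun m hm => ?_⟩
    rw [sig_sg hω D hn' haa' hm, map_neg, LinearMap.neg_apply, neg_smul, neg_neg]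
  -- pure elements
  have hpure : ∀ h : (Module.End F V)ˣ, h ∈ M → InU D a h → ∀ m₀, ω a m₀ = 0 → (∀ c : F, m₀ ≠ c • a) →
      D.sig a' h m₀ ∈ T := by
    intro h hhM hh m₀ hm₀ hm₀' n hn
    have hm₀a : ω m₀ a = 0 := by rw [hω.skew, hm₀, neg_zero]
    by_cases hna : ∃ c : F, n = c • a
    · obtain ⟨c, rfl⟩ := hna
      refine ⟨1, M.one_mem, InU.one, fun m hm => ?_⟩
      rw [TD.sig_one, map_smul, LinearMap.smul_apply, hm, smul_zero, zero_smul]; rfl
    push Not at hna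
    set α := tv hω 1 m₀ with hα
    have hαa : α.1 a = a := by rw [hα, tv_apply, hm₀a, mul_zero, zero_smul, add_zero]
    have hα1 : IsoW ω α := isoW_tv hω _ _
    set h₀ := D.mapU hω α 1 * h * (D.mapU hω α 1)⁻¹ * h⁻¹ with hh₀
    have hUc : InU D a (D.mapU hω α 1 * h * (D.mapU hω α 1)⁻¹) := hh.conj hω hα1 hαa 1
    have hh₀U : InU D a h₀ := hUc.mul hh.inv
    have hh₀M : h₀ ∈ M := M.mul_mem (M.mul_mem (M.mul_mem (hM.sp _ hα1) hhM) (M.inv_mem (hM.sp _ hα1)))
      (M.inv_mem hhM)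
    have hsig : ∀ m, ω a m = 0 → D.sig a' h₀ m = ω (-m₀) m • D.sig a' h m₀ := by
      intro m hm
      rw [hh₀, TD.sig_mul hω hUc hh.inv hm, TD.sig_inv hω hh hm]
      have e1 : m = α.1 (m - ω m₀ m • m₀) := by
        rw [hα, tv_apply, map_sub, map_smul, hω.alt, smul_zero, sub_zero, one_mul, sub_add_cancel]
      have e2 : ω a (m - ω m₀ m • m₀) = 0 := by rw [map_sub, hm, map_smul, hm₀, smul_zero, sub_zero]
      have e3 := sig_conj hω hh haa' hα1 hαa 1 e2
      rw [← e1] at e3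
      rw [e3, inv_one, Units.val_one, one_mul, mul_one]
      have e4 : m - ω m₀ m • m₀ = m + (-ω m₀ m) • m₀ := by rw [neg_smul, sub_eq_add_neg]
      rw [e4, TD.sig_add, TD.sig_smul, map_neg, LinearMap.neg_apply]
      abel
    obtain ⟨γ, hγ, hγa, hγn⟩ := exists_iso hω (a := a) (x := -m₀) (y := n)
      (by rw [map_neg, hm₀, neg_zero]) hn (fun c hc => hm₀' (-c) (by rw [neg_smul, ← hc, neg_neg])) hna
    refine ⟨D.mapU hω γ 1 * h₀ * (D.mapU hω γ 1)⁻¹,
      M.mul_mem (M.mul_mem (hM.sp _ hγ) hh₀M) (M.inv_mem (hM.sp _ hγ)), hh₀U.conj hω hγ hγa 1, ?_⟩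
    intro m hm
    have e1 : m = γ.1 ((γ⁻¹).1 m) := (apply_inv γ m).symm
    have e2 : ω a ((γ⁻¹).1 m) = 0 := by rw [← hγ, hγa, apply_inv, hm]
    have e3 := sig_conj hω hh₀U haa' hγ hγa 1 e2
    rw [← e1] at e3
    rw [e3, inv_one, Units.val_one, one_mul, mul_one, hsig _ e2, ← hγ, hγn, apply_inv]
  -- the symbols are scalar
  have hscal : ∀ m, ω a m = 0 → ∃ τ : F, D.sig a' g m = τ • 1 := by
    intro m hm
    by_cases hma : ∃ c : F, m = c • a
    · obtain ⟨c, rfl⟩ := hma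
      exact ⟨0, by rw [TD.sig_smul, TD.sig_self hg, smul_zero, zero_smul]⟩
    push Not at hma
    have hmT := hpure g hgM hg m hm hma
    refine hT T hT1 ?_ ?_ _ hmT
    · intro β hβ s hs n hn
      obtain ⟨h, h1, h2, h3⟩ := hs n hn
      refine ⟨D.mapU hω 1 β * h * (D.mapU hω 1 β)⁻¹,
        M.mul_mem (M.mul_mem hβ h1) (M.inv_mem hβ), h2.conj hω IsoW.one rfl β, fun m' hm' => ?_⟩
      have e3 := sig_conj hω h2 haa' IsoW.one rfl β hm'
      rw [Units.val_one, Module.End.one_apply, h3 m' hm', mul_smul_comm, smul_mul_assoc] at e3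
      exact e3
    · intro s hs s' hs'
      -- choose `n₁`, `n₂`
      obtain ⟨n₂, hn₂, hn₁₂⟩ : ∃ n₂, ω a n₂ = 0 ∧ ω m n₂ = 1 := by
        by_contra hcon
        push Not at hcon
        obtain ⟨c, hc⟩ := hω.eq_smul_of_perp (a := a) (u := m) ha (by
          intro n hn
          by_contra hne
          apply hcon ((ω m n)⁻¹ • n) (by rw [map_smul, hn, smul_zero])
          rw [map_smul, smul_eq_mul, inv_mul_cancel₀ hne])
        exact hma c hc
      obtain ⟨h, h1, h2, h3⟩ := hs m hm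
      obtain ⟨h', h1', h2', h3'⟩ := hs' n₂ hn₂
      obtain ⟨τ, hτ⟩ := constraint hω hf hM haa' h1 h1' h2 h2'
      have hp : ∀ x : (Module.End F V)ˣ, InU D a x → ∀ (n : Fin k → F) (r : Module.End F B), ω a n = 0 →
          (∀ m', ω a m' = 0 → D.sig a' x m' = ω n m' • r) →
          ∀ b, ∃ b', x.1 (D.ι a' b) - D.ι a' b = D.ι a b' - D.ι n (r b) := by
        intro x hx n r hn hxr b
        obtain ⟨b', hb'⟩ := D.exists_of_perp hω ha (v := x.1 (D.ι a' b) - D.ι a' b + D.ι n (r b)) (by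
          intro m' hm'
          have := LinearMap.congr_fun (hxr m' hm') b
          rw [TD.sig_apply, ← map_sub, LinearMap.smul_apply] at this
          rw [map_add, this, D.κι, hω.skew m' n, neg_smul, add_neg_cancel])
        exact ⟨b', by rw [← hb']; abel⟩
      refine ⟨τ, fun b b' => ?_⟩
      obtain ⟨x1, hx1⟩ := hp h h2 m s hm h3 b
      obtain ⟨x2, hx2⟩ := hp h' h2' n₂ s' hn₂ h3' b'
      obtain ⟨x3, hx3⟩ := hp h' h2' n₂ s' hn₂ h3' b
      obtain ⟨x4, hx4⟩ := hp h h2 m s hm h3 b'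
      have h5 := hτ b b'
      have hma' : ω m a = 0 := by rw [hω.skew, hm, neg_zero]
      have hn₂a : ω n₂ a = 0 := by rw [hω.skew, hn₂, neg_zero]
      have hn₂m : ω n₂ m = -1 := by rw [hω.skew, hn₁₂]
      rw [hx1, hx2, hx3, hx4] at h5
      simp only [map_sub, LinearMap.sub_apply, hf.ιι, hω.alt, hm, hn₂, hma', hn₂a, hn₁₂, hn₂m] at h5
      linear_combination h5
  -- the vector
  obtain ⟨b₀, hb₀⟩ := exists_ne (0 : B)
  obtain ⟨ψ, hψ⟩ : ∃ ψ : B →ₗ[F] F, ψ b₀ = 1 := by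
    obtain ⟨ψ, hψ⟩ : ∃ ψ : B →ₗ[F] F, ψ b₀ ≠ 0 := by
      by_contra hcon
      push Not at hcon
      exact hb₀ ((Module.forall_dual_apply_eq_zero_iff F b₀).1 hcon)
    exact ⟨(ψ b₀)⁻¹ • ψ, by rw [LinearMap.smul_apply, smul_eq_mul, inv_mul_cancel₀ hψ]⟩
  -- a vector with the same symbol
  obtain ⟨n, hn⟩ := hω.exists_repr ((ψ ∘ₗ (LinearMap.applyₗ b₀)) ∘ₗ
    ({ toFun := fun m => D.sig a' g m
       map_add' := D.sig_add a' g
       map_smul' := fun c m => D.sig_smul a' g c m } : (Fin k → F) →ₗ[F] Module.End F B))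
  have hnm : ∀ m, ω a m = 0 → D.sig a' g m = ω n m • 1 := by
    intro m hm
    obtain ⟨τ, hτ⟩ := hscal m hm
    rw [hn m]
    show D.sig a' g m = ψ (D.sig a' g m b₀) • 1
    rw [hτ, LinearMap.smul_apply, Module.End.one_apply, map_smul, hψ, smul_eq_mul, mul_one]
  have hna : ω a n = 0 := by
    rw [hω.skew, hn a]
    show -ψ (D.sig a' g a b₀) = 0
    rw [TD.sig_self hg, LinearMap.zero_apply, map_zero, neg_zero]
  have hsM := hM.sp _ (isoW_sg hω hna)
  have hgU : InU D a (D.mapU hω (sg hω hna) 1 * g) := (inU_sg hω D hna).mul hg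
  obtain ⟨r, hr⟩ := eq_cs_of_sig_zero hω hf haa' hgU (hM.isom _ (M.mul_mem hsM hgM)) (fun m hm => by
    rw [TD.sig_mul hω (inU_sg hω D hna) hg hm, sig_sg hω D hna haa' hm, hnm m hm, neg_add_cancel])
  obtain ⟨τ, hτ⟩ := hM.caseI a ha r _ (M.mul_mem hsM hgM) hr
  have h1 : D.mapU hω (sg hω hna) 1 * g = D.mapU hω (tv hω τ a) 1 := by
    apply Units.ext
    rw [hr, mapU_tv_val, hτ]
  refine ⟨(sg hω hna)⁻¹ * tv hω τ a, (isoW_sg hω hna).inv.mul (isoW_tv hω τ a), ?_, ?_⟩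
  · rw [mul_app, tv_apply, hω.alt, mul_zero, zero_smul, add_zero]
    have h2 := inv_apply (sg hω hna) a
    rwa [sg_fix] at h2
  · have h2 := D.mapU_mul hω (sg hω hna)⁻¹ (tv hω τ a) 1 1
    rw [mul_one] at h2
    rw [← h2, ← h1, ← mul_assoc, D.mapU_mul, inv_mul_cancel, mul_one, D.mapU_one, one_mul]

end Main

end Cfsg.Agent.H889.C7
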