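import Mathlib
import Cfsg.Agent.H889.C7.Layer

/-!
Elements of `M` normalising a root group `1 + λ c_a ⊗ 1` are decomposable `α ⊗ β`.
-/

set_option autoImplicit false
set_option linter.unusedSectionVars false
set_option linter.unusedVariables false
set_option linter.unusedSimpArgs false

namespace Cfsg.Agent.H889.C7

open Module

variable {F : Type*} [Field F] {k : ℕ} {ω : LinearMap.BilinForm F (Fin k → F)} {B V : Type*}
  [AddCommGroup B] [Module F B] [AddCommGroup V] [Module F V]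

/-- The conclusion of the layer theorem. -/
def LayerC (hω : Symp ω) (D : TD ω B V) (M : Subgroup (Module.End F V)ˣ) (a : Fin k → F) : Prop :=
  ∀ g ∈ M, InU D a g → ∃ α, IsoW ω α ∧ α.1 a = a ∧ g = D.mapU hω α 1

/-- `g` normalises the root group of `a`, with the induced map `g₃` on `B`. -/
structure NC (D : TD ω B V) (a : Fin k → F) (μ : F) (g : (Module.End F V)ˣ)
    (g₃ : (Module.End F B)ˣ) : Prop where
  gι : ∀ b, g.1 (D.ι a b) = D.ι a (μ • g₃.1 b)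
  κg : ∀ v, D.κ a (g.1 v) = g₃.1 (D.κ a v)

section

variable {D : TD ω B V} {a a' : Fin k → F} {μ : F} {g : (Module.End F V)ˣ}

theorem κ_fact (hω : Symp ω) (haa' : ω a a' = 1) (hμ : μ ≠ 0)
    (h : ∀ v, g.1 (D.cs a 1 v) = μ • D.cs a 1 (g.1 v)) (v : V) :
    D.κ a (g.1 v) = D.κ a (g.1 (D.ι a' (D.κ a v))) := by
  have ha : a ≠ 0 := by
    rintro rfl
    simp at haa'
  have e1 : D.cs a 1 (g.1 v) = D.cs a 1 (g.1 (D.ι a' (D.κ a v))) := by
    have h1 := h v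
    have h2 := h (D.ι a' (D.κ a v))
    have h3 : D.cs a 1 (D.ι a' (D.κ a v)) = D.cs a 1 v := by
      rw [TD.cs_apply, TD.cs_apply, D.κι, haa', one_smul]
    rw [h3, h1] at h2
    exact smul_right_injective V hμ h2
  rw [TD.cs_apply, TD.cs_apply, Module.End.one_apply, Module.End.one_apply] at e1
  rw [← sub_eq_zero]
  apply D.ι_inj hω ha
  rw [map_sub, e1, sub_self]

theorem comm_inv (hμ : μ ≠ 0) (h : ∀ v, g.1 (D.cs a 1 v) = μ • D.cs a 1 (g.1 v)) (v : V) :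
    (g⁻¹).1 (D.cs a 1 v) = μ⁻¹ • D.cs a 1 ((g⁻¹).1 v) := by
  have h1 := h ((g⁻¹).1 v)
  rw [apply_inv] at h1
  have h2 := congrArg (fun x => (g⁻¹).1 x) h1
  simp only [inv_apply] at h2
  rw [h2, map_smul, inv_smul_smul₀ hμ]

theorem exists_NC (hω : Symp ω) (haa' : ω a a' = 1) (hμ : μ ≠ 0)
    (h : ∀ v, g.1 (D.cs a 1 v) = μ • D.cs a 1 (g.1 v)) : ∃ g₃, NC D a μ g g₃ := by
  have hinv := comm_inv hμ h
  have k1 := κ_fact hω haa' hμ h
  have k2 := κ_fact (g := g⁻¹) hω haa' (inv_ne_zero hμ) hinv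
  let g₃ : (Module.End F B)ˣ :=
    { val := D.κ a ∘ₗ g.1 ∘ₗ D.ι a'
      inv := D.κ a ∘ₗ (g⁻¹).1 ∘ₗ D.ι a'
      val_inv := by
        refine LinearMap.ext fun b => ?_
        rw [Module.End.mul_apply, Module.End.one_apply]
        simp only [LinearMap.comp_apply]
        rw [← k1, apply_inv, D.κι, haa', one_smul]
      inv_val := by
        refine LinearMap.ext fun b => ?_
        rw [Module.End.mul_apply, Module.End.one_apply]
        simp only [LinearMap.comp_apply]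
        rw [← k2, inv_apply, D.κι, haa', one_smul] }
  refine ⟨g₃, ?_, ?_⟩
  · intro b
    have h1 := h (D.ι a' b)
    rw [TD.cs_apply, TD.cs_apply, D.κι, haa', one_smul, Module.End.one_apply,
      Module.End.one_apply] at h1
    rw [h1, map_smul]
    rfl
  · intro v
    exact k1 v

theorem NC.inv {g₃ : (Module.End F B)ˣ} (hμ : μ ≠ 0) (h : NC D a μ g g₃) :
    NC D a μ⁻¹ g⁻¹ g₃⁻¹ := by
  refine ⟨fun b => ?_, fun v => ?_⟩
  · have h1 := h.gι (μ⁻¹ • (g₃⁻¹).1 b)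
    rw [map_smul g₃.1, apply_inv, smul_inv_smul₀ hμ] at h1
    rw [← h1, inv_apply]
  · have h1 := h.κg ((g⁻¹).1 v)
    rw [apply_inv] at h1
    rw [h1, inv_apply]

theorem NC.conj {g₃ : (Module.End F B)ˣ} (hμ : μ ≠ 0) (h : NC D a μ g g₃)
    {x : (Module.End F V)ˣ} (hx : InU D a x) : InU D a (g * x * g⁻¹) := by
  have hi := h.inv hμ
  refine ⟨fun b => ?_, fun v => ?_, fun v hv => ?_⟩
  · rw [mul_app, mul_app, hi.gι, hx.fix, ← hi.gι, apply_inv]
  · rw [mul_app, mul_app, h.κg, hx.kap, ← h.κg, apply_inv]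
  · obtain ⟨b, hb⟩ := hx.mid ((g⁻¹).1 v) (by rw [hi.κg, hv, map_zero])
    refine ⟨μ • g₃.1 b, ?_⟩
    rw [mul_app, mul_app, hb, map_add, apply_inv, h.gι]

theorem NC.iso {fB : LinearMap.BilinForm F B} {fV : LinearMap.BilinForm F V} (hω : Symp ω)
    (hf : D.Forms fB fV) (hg : ∀ v w, fV (g.1 v) (g.1 w) = fV v w) (haa' : ω a a' = 1)
    {g₃ : (Module.End F B)ˣ} (h : NC D a μ g g₃) (b b' : B) :
    μ * fB (g₃.1 b) (g₃.1 b') = fB b b' := by
  have h1 := hg (D.ι a b) (D.ι a' b')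
  rw [h.gι, hf.adj, h.κg, hf.ιι, haa', one_mul, D.κι, haa', one_smul, map_smul, LinearMap.smul_apply,
    smul_eq_mul] at h1
  exact h1

end

section Main

variable {D : TD ω B V} {a a' : Fin k → F} {μ : F} {g : (Module.End F V)ˣ}
  {fB : LinearMap.BilinForm F B} {fV : LinearMap.BilinForm F V} {M : Subgroup (Module.End F V)ˣ}
  {g₃ : (Module.End F B)ˣ}

/-- First information on `g ι n`. -/
theorem e3 (hω : Symp ω) (hM : GoodM hω D fB fV M) (hL : LayerC hω D M a) (haa' : ω a a' = 1)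
    (hμ : μ ≠ 0) (hgM : g ∈ M) (h : NC D a μ g g₃) {n : Fin k → F} (hn : ω a n = 0) :
    ∃ n'', ω a n'' = 0 ∧ ∀ b, ∃ y, g.1 (D.ι n b) = D.ι n'' (g₃.1 b) + D.ι a y := by
  have hxM : D.mapU hω (sg hω hn) 1 ∈ M := hM.sp _ (isoW_sg hω hn)
  obtain ⟨α, hα, hαa, hαe⟩ := hL _ (M.mul_mem (M.mul_mem hgM hxM) (M.inv_mem hgM))
    (h.conj hμ (inU_sg hω D hn))
  refine ⟨α.1 a' - a', ?_, fun b => ?_⟩
  · rw [map_sub, haa', ← haa', ← hα a a', hαa, sub_self]
  have hU : InU D a (D.mapU hω α 1) := by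
    rw [← hαe]; exact h.conj hμ (inU_sg hω D hn)
  obtain ⟨y, hy⟩ := hU.mid (g.1 (D.ι a' b) - D.ι a' (g₃.1 b)) (by
    rw [map_sub, h.κg, D.κι, D.κι, haa', one_smul, one_smul, sub_self])
  have h1 : (g * D.mapU hω (sg hω hn) 1 * g⁻¹).1 (g.1 (D.ι a' b)) =
      g.1 (D.ι a' b) + g.1 (D.ι n b) + D.ι a (μ • g₃.1 (ω n a' • b)) := by
    rw [mul_app, mul_app, inv_apply, mapU_sg_val, LinearMap.add_apply, LinearMap.add_apply,
      Module.End.one_apply, LinearMap.comp_apply, LinearMap.comp_apply, D.κι, D.κι, haa', one_smul, map_add,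
      map_add, h.gι]
    abel
  rw [hαe] at h1
  have h2 : (D.mapU hω α 1).1 (g.1 (D.ι a' b)) = D.ι (α.1 a') (g₃.1 b) +
      (g.1 (D.ι a' b) - D.ι a' (g₃.1 b) + D.ι a y) := by
    have h3 : D.ι (α.1 a') (g₃.1 b) = (D.mapU hω α 1).1 (D.ι a' (g₃.1 b)) := by
      rw [D.mapU_ι hω]; rfl
    rw [← hy, h3, ← map_add]
    congr 1
    abel
  refine ⟨y - μ • g₃.1 (ω n a' • b), ?_⟩
  rw [h2] at h1
  rw [map_sub, map_sub, LinearMap.sub_apply]
  have h3 := sub_eq_zero.2 h1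
  rw [← sub_eq_zero, ← neg_eq_zero, ← h3]
  abel

theorem tv_fix (hω : Symp ω) {n : Fin k → F} (hn : ω n a = 0) (c : F) : (tv hω c n).1 a = a := by
  rw [tv_apply, hn, mul_zero, zero_smul, add_zero]

theorem mapU_tv_apply (hω : Symp ω) (D : TD ω B V) (c : F) (u : Fin k → F) (v : V) :
    (D.mapU hω (tv hω c u) 1).1 v = v + D.ι u (c • D.κ u v) := by
  rw [mapU_tv_val, LinearMap.add_apply, Module.End.one_apply, TD.cs_apply, LinearMap.smul_apply,
    Module.End.one_apply]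

/-- `g ι n = ι n̂ g₃`. -/
theorem e6 [Nontrivial B] (hω : Symp ω) (hf : D.Forms fB fV) (hM : GoodM hω D fB fV M)
    (hL : LayerC hω D M a) (haa' : ω a a' = 1)
    (hμ : μ ≠ 0) (hgM : g ∈ M) (h : NC D a μ g g₃) {n : Fin k → F} (hn : ω a n = 0) :
    ∃ n'', ω a n'' = 0 ∧ ∀ b, g.1 (D.ι n b) = D.ι n'' (g₃.1 b) := by
  have ha : a ≠ 0 := by
    rintro rfl
    simp at haa'
  by_cases hna : ∃ c : F, n = c • a
  · obtain ⟨c, rfl⟩ := hna
    refine ⟨(c * μ) • a, by rw [map_smul, hω.alt, smul_zero], fun b => ?_⟩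
    rw [map_smul, LinearMap.smul_apply, map_smul, h.gι, map_smul, map_smul, LinearMap.smul_apply, smul_smul]
  push Not at hna
  have hn0 : n ≠ 0 := fun h0 => hna 0 (by rw [h0, zero_smul])
  obtain ⟨n₂, hn₂, hy⟩ := e3 hω hM hL haa' hμ hgM h hn
  have hn₂' : ω n₂ a = 0 := by rw [hω.skew, hn₂, neg_zero]
  have hn' : ω n a = 0 := by rw [hω.skew, hn, neg_zero]
  have hiso := hM.isom g hgM
  -- the contraction
  have hk : ∀ v, D.κ a v = 0 → D.κ n₂ (g.1 v) = μ • g₃.1 (D.κ n v) := by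
    intro v hv
    rw [← sub_eq_zero]
    apply hf.ndr
    intro b₁
    obtain ⟨b, rfl⟩ : ∃ b, b₁ = g₃.1 b := ⟨(g₃⁻¹).1 b₁, (apply_inv _ _).symm⟩
    obtain ⟨y, hy⟩ := hy b
    have h1 := hiso (D.ι n b) v
    rw [hy, map_add, LinearMap.add_apply, hf.adj, hf.adj, hf.adj, h.κg, hv, map_zero, map_zero,
      add_zero] at h1
    rw [map_sub, h1, ← h.iso hω hf hiso haa', map_smul, smul_eq_mul, sub_self]
  -- conjugate of the transvection
  set t := D.mapU hω (tv hω 1 n) 1 with ht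
  have htM : t ∈ M := hM.sp _ (isoW_tv hω _ _)
  set t₂ := D.mapU hω (tv hω μ⁻¹ n₂) 1 with ht₂
  have ht₂M : t₂ ∈ M := hM.sp _ (isoW_tv hω _ _)
  have hi := h.inv hμ
  have kt₂ : ∀ v, D.κ a (t₂.1 v) = D.κ a v := fun v => by
    rw [ht₂, mapU_tv_apply, map_add, D.κι, hn₂, zero_smul, add_zero]
  have kt : ∀ v, D.κ a (t.1 v) = D.κ a v := fun v => by
    rw [ht, mapU_tv_apply, map_add, D.κι, hn, zero_smul, add_zero]
  have hU : InU D a (g * t * g⁻¹ * t₂⁻¹) := by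
    refine ⟨fun b => ?_, fun v => ?_, fun v hv => ?_⟩
    · have h1 : (t₂⁻¹).1 (D.ι a b) = D.ι a b := by
        have : t₂.1 (D.ι a b) = D.ι a b := by
          rw [ht₂, mapU_tv_apply, D.κι, hn₂', zero_smul, smul_zero, map_zero, add_zero]
        conv_lhs => rw [← this]
        rw [inv_apply]
      have h2 : ∀ b, t.1 (D.ι a b) = D.ι a b := fun b => by
        rw [ht, mapU_tv_apply, D.κι, hn', zero_smul, smul_zero, map_zero, add_zero]
      rw [mul_app, h1, mul_app, mul_app, hi.gι, h2, ← hi.gι, apply_inv]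
    · rw [mul_app, mul_app, mul_app, h.κg, kt, ← h.κg, apply_inv, ← kt₂, apply_inv]
    · have hu : D.κ a ((t₂⁻¹).1 v) = 0 := by rw [← kt₂, apply_inv, hv]
      have e1 : v = (t₂⁻¹).1 v + D.ι n₂ (μ⁻¹ • D.κ n₂ ((t₂⁻¹).1 v)) := by
        have e0 := mapU_tv_apply hω D μ⁻¹ n₂ ((t₂⁻¹).1 v)
        rw [← ht₂, apply_inv] at e0
        exact e0
      set u := (t₂⁻¹).1 v with hu'
      obtain ⟨y, hy⟩ := hy (D.κ n ((g⁻¹).1 u))
      refine ⟨y, ?_⟩
      have e2 := hk ((g⁻¹).1 u) (by rw [hi.κg, hu, map_zero])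
      rw [apply_inv] at e2
      rw [mul_app, mul_app, mul_app, ← hu', ht, mapU_tv_apply, map_add, apply_inv, one_smul, hy]
      conv_rhs => rw [e1]
      rw [e2, inv_smul_smul₀ hμ, add_assoc]
  obtain ⟨α, hα, hαa, hαe⟩ := hL _ (M.mul_mem (M.mul_mem (M.mul_mem hgM htM) (M.inv_mem hgM))
    (M.inv_mem ht₂M)) hU
  set γ := α * tv hω μ⁻¹ n₂ with hγ
  have hγi : IsoW ω γ := hα.mul (isoW_tv hω _ _)
  have hγe : g * t * g⁻¹ = D.mapU hω γ 1 := by
    rw [mul_inv_eq_iff_eq_mul] at hαe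
    rw [hαe, ht₂, D.mapU_mul, mul_one]
  -- the fixed vector
  obtain ⟨y₀, hy₀a, hy₀n⟩ : ∃ y, ω a y = 1 ∧ ω n y = 0 := by
    obtain ⟨u, hu1, hu2⟩ := hω.exists_sep (w := a) (w' := n) (fun c hc => by
      by_cases hc0 : c = 0
      · rw [hc0, zero_smul] at hc; exact ha hc
      · exact hna c⁻¹ (by rw [hc, inv_smul_smul₀ hc0])) trivial
    refine ⟨-u, ?_, ?_⟩
    · rw [map_neg, hω.skew, neg_neg, hu1]
    · rw [map_neg, hω.skew, neg_neg, hu2]
  obtain ⟨b₀, hb₀⟩ := exists_ne (0 : B)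
  have hb₁ : g₃.1 b₀ ≠ 0 := fun h0 => hb₀ (by rw [← inv_apply g₃ b₀, h0, map_zero])
  obtain ⟨ψ, hψ⟩ : ∃ ψ : B →ₗ[F] F, ψ (g₃.1 b₀) ≠ 0 := by
    by_contra hcon
    push Not at hcon
    exact hb₁ ((Module.forall_dual_apply_eq_zero_iff F _).1 hcon)
  set v := g.1 (D.ι y₀ b₀) with hv
  have hvfix : (D.mapU hω γ 1).1 v = v := by
    rw [← hγe, mul_app, mul_app, hv, inv_apply, ht, mapU_tv_apply, D.κι, hy₀n, zero_smul, smul_zero, map_zero,
      add_zero]
  have hκv : ∀ x, D.κ (γ.1 x) v = D.κ x v := fun x => by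
    conv_lhs => rw [← hvfix]
    rw [κ_mapU hω D hγi, Units.val_one, Module.End.one_apply]
  obtain ⟨u₀, hu₀⟩ := hω.exists_repr (ψ ∘ₗ (D.κ.flip v))
  have hu₀' : ∀ x, ω u₀ x = ψ (D.κ x v) := fun x => by rw [hu₀]; rfl
  have hu₀a : ω u₀ a ≠ 0 := by
    rw [hu₀', hv, h.κg, D.κι, hy₀a, one_smul]; exact hψ
  have hγu : γ.1 u₀ = u₀ := by
    rw [← sub_eq_zero]
    apply hω.nd
    intro x
    rw [← apply_inv γ x, map_sub, LinearMap.sub_apply, hγi, hu₀', hu₀', hκv, sub_self]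
  have hγu' : (γ⁻¹).1 u₀ = u₀ := by
    conv_lhs => rw [← hγu]
    rw [inv_apply]
  -- the conclusion
  obtain ⟨m, hm⟩ := hω.exists_pair hn0
  have hker : ∀ b, D.κ u₀ (g.1 (D.ι n b)) = 0 := by
    intro b
    have h1 : (D.mapU hω γ 1).1 (g.1 (D.ι m b)) = g.1 (D.ι m b) + g.1 (D.ι n b) := by
      rw [← hγe, mul_app, mul_app, inv_apply, ht, mapU_tv_apply, D.κι, hm, one_smul, one_smul, map_add]
    have h2 := κ_mapU' hω D hγi 1 u₀ (g.1 (D.ι m b))
    rw [h1, hγu', map_add, Units.val_one, Module.End.one_apply, add_eq_left] at h2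
    exact h2
  refine ⟨n₂ - ((ω u₀ a)⁻¹ * ω u₀ n₂) • a, ?_, fun b => ?_⟩
  · rw [map_sub, hn₂, map_smul, hω.alt, smul_zero, sub_zero]
  · obtain ⟨y, hy⟩ := hy b
    have h1 := hker b
    rw [hy, map_add, D.κι, D.κι] at h1
    have h2 : y = -(((ω u₀ a)⁻¹ * ω u₀ n₂) • g₃.1 b) := by
      rw [mul_smul, ← smul_neg, ← eq_neg_of_add_eq_zero_right h1, inv_smul_smul₀ hu₀a]
    rw [hy, h2, map_sub, LinearMap.sub_apply, map_neg, map_smul, map_smul, LinearMap.smul_apply,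
      sub_eq_add_neg]

theorem alpha_of_choice [Nontrivial B] (hω : Symp ω) {T : Module.End F V} (g₃ : (Module.End F B)ˣ)
    (h : ∀ w, ∃ w', ∀ b, T (D.ι w b) = D.ι w' (g₃.1 b)) :
    ∃ α : Module.End F (Fin k → F), ∀ w b, T (D.ι w b) = D.ι (α w) (g₃.1 b) := by
  choose α hα using h
  obtain ⟨b₀, hb₀⟩ := exists_ne (0 : B)
  have hb₁ : g₃.1 b₀ ≠ 0 := fun h0 => hb₀ (by rw [← inv_apply g₃ b₀, h0, map_zero])
  have huniq : ∀ x y, D.ι x (g₃.1 b₀) = D.ι y (g₃.1 b₀) → x = y := by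
    intro x y hxy
    by_contra hne
    apply hb₁
    apply D.ι_inj hω (sub_ne_zero.2 hne)
    rw [map_sub, LinearMap.sub_apply, hxy, sub_self]
  refine ⟨{ toFun := α, map_add' := fun x y => ?_, map_smul' := fun c x => ?_ }, hα⟩
  · apply huniq
    rw [← hα, map_add, map_add, LinearMap.add_apply, LinearMap.add_apply, map_add, hα, hα]
  · apply huniq
    rw [← hα, RingHom.id_apply, map_smul, map_smul, LinearMap.smul_apply, LinearMap.smul_apply, map_smul, hα]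

/-- `g = (α ⊗ g₃) (1 + c_a ⊗ s)`. -/
theorem e7 [Nontrivial B] (hω : Symp ω) (hf : D.Forms fB fV) (hM : GoodM hω D fB fV M)
    (hL : LayerC hω D M a) (haa' : ω a a' = 1)
    (hμ : μ ≠ 0) (hgM : g ∈ M) (h : NC D a μ g g₃) :
    ∃ (α : (Module.End F (Fin k → F))ˣ) (h' : (Module.End F V)ˣ) (s : Module.End F B),
      (∀ u v, ω (α.1 u) (α.1 v) = μ * ω u v) ∧ α.1 a = μ • a ∧ h'.1 = 1 + D.cs a s ∧
      g = D.mapU hω α g₃ * h' := by
  have ha : a ≠ 0 := by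
    rintro rfl
    simp at haa'
  have ha'a : ω a' a = -1 := by rw [hω.skew, haa']
  have hiso := hM.isom g hgM
  have h6 := fun n hn => e6 hω hf hM hL haa' hμ hgM h (n := n) hn
  have h6' : ∀ m, ω a m = 0 → ∃ n, ω a n = 0 ∧ ∀ b, g.1 (D.ι n b) = D.ι m (g₃.1 b) := by
    intro m hm
    obtain ⟨n, hn, hn'⟩ := e6 hω hf hM hL haa' (inv_ne_zero hμ) (M.inv_mem hgM) (h.inv hμ) (n := m) hm
    refine ⟨n, hn, fun b => ?_⟩
    have h1 := hn' (g₃.1 b)
    rw [inv_apply] at h1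
    rw [← h1, apply_inv]
  obtain ⟨b₀, hb₀⟩ := exists_ne (0 : B)
  have hb₁ : g₃.1 b₀ ≠ 0 := fun h0 => hb₀ (by rw [← inv_apply g₃ b₀, h0, map_zero])
  obtain ⟨ψ, hψ⟩ : ∃ ψ : B →ₗ[F] F, ψ (g₃.1 b₀) = 1 := by
    obtain ⟨ψ, hψ⟩ : ∃ ψ : B →ₗ[F] F, ψ (g₃.1 b₀) ≠ 0 := by
      by_contra hcon
      push Not at hcon
      exact hb₁ ((Module.forall_dual_apply_eq_zero_iff F _).1 hcon)
    exact ⟨(ψ (g₃.1 b₀))⁻¹ • ψ, by rw [LinearMap.smul_apply, smul_eq_mul, inv_mul_cancel₀ hψ]⟩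
  set r : Module.End F B := D.κ a' ∘ₗ g.1 ∘ₗ D.ι a' with hr
  obtain ⟨T, hT⟩ : ∃ T : Module.End F V, T = g.1 + D.ι a ∘ₗ r ∘ₗ D.κ a := ⟨_, rfl⟩
  -- contractions of `g ι a'`
  have hcon : ∀ u n, ω a u = 0 → ω a n = 0 → (∀ b, g.1 (D.ι n b) = D.ι u (g₃.1 b)) → ∀ b,
      D.κ u (g.1 (D.ι a' b)) = (μ * ω n a') • g₃.1 b := by
    intro u n hu hn hn' b
    rw [← sub_eq_zero]
    apply hf.ndr
    intro b₁
    obtain ⟨b', rfl⟩ : ∃ b, b₁ = g₃.1 b := ⟨(g₃⁻¹).1 b₁, (apply_inv _ _).symm⟩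
    have h1 := hiso (D.ι n b') (D.ι a' b)
    rw [hn', hf.adj, hf.ιι] at h1
    have h0 := h.iso hω hf hiso haa' b' b
    rw [map_sub, h1, map_smul, smul_eq_mul, ← h0]
    ring
  have hTn : ∀ n, ω a n = 0 → ∀ b, T (D.ι n b) = g.1 (D.ι n b) := by
    intro n hn b
    rw [hT, LinearMap.add_apply, LinearMap.comp_apply, LinearMap.comp_apply, D.κι, hn, zero_smul, map_zero,
      map_zero, add_zero]
  have hTa' : ∀ b, T (D.ι a' b) = g.1 (D.ι a' b) + D.ι a (r b) := by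
    intro b
    rw [hT, LinearMap.add_apply, LinearMap.comp_apply, LinearMap.comp_apply, D.κι, haa', one_smul]
  have hsc : ∀ u, ∃ θ : F, ∀ b, D.κ u (T (D.ι a' b)) = θ • g₃.1 b := by
    intro u
    set u' := u - ω a u • a' with hu'
    have hau' : ω a u' = 0 := by rw [hu', map_sub, map_smul, haa', smul_eq_mul, mul_one, sub_self]
    obtain ⟨n, hn, hn'⟩ := h6' u' hau'
    refine ⟨μ * ω n a', fun b => ?_⟩
    have e1 : u = u' + ω a u • a' := by rw [hu']; abel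
    have hu'a : ω u' a = 0 := by rw [hω.skew, hau', neg_zero]
    have e2 := hcon u' n hau' hn hn' b
    have e3 : r b = D.κ a' (g.1 (D.ι a' b)) := rfl
    have e4 : D.κ u (T (D.ι a' b)) = D.κ u' (T (D.ι a' b)) + ω a u • D.κ a' (T (D.ι a' b)) := by
      conv_lhs => rw [e1]
      rw [map_add, LinearMap.add_apply, map_smul, LinearMap.smul_apply]
    rw [e4, hTa', map_add, map_add, e2, D.κι, hu'a, zero_smul, add_zero, D.κι, ha'a, e3, neg_smul, one_smul,
      add_neg_cancel, smul_zero, add_zero]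
  obtain ⟨α, hα⟩ := alpha_of_choice (D := D) (T := T) hω g₃ (by
    intro w
    -- image of `a'`
    obtain ⟨x, hx⟩ := hω.exists_repr (ψ ∘ₗ (D.κ.flip (T (D.ι a' b₀))))
    have hx' : ∀ u, ω x u = ψ (D.κ u (T (D.ι a' b₀))) := fun u => by rw [hx]; rfl
    have hxa' : ∀ b, T (D.ι a' b) = D.ι (-x) (g₃.1 b) := by
      intro b
      rw [← sub_eq_zero]
      apply D.inj
      intro u
      obtain ⟨θ, hθ⟩ := hsc u
      rw [map_sub, hθ, D.κι, map_neg, ← hω.skew, hx', hθ, map_smul, hψ, smul_eq_mul, mul_one, sub_self]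
    set n := w - ω a w • a' with hn
    have han : ω a n = 0 := by rw [hn, map_sub, map_smul, haa', smul_eq_mul, mul_one, sub_self]
    obtain ⟨m, hm, hm'⟩ := h6 n han
    refine ⟨m + ω a w • (-x), fun b => ?_⟩
    have e1 : w = n + ω a w • a' := by rw [hn]; abel
    conv_lhs => rw [e1]
    rw [map_add, LinearMap.add_apply, map_add, hTn n han, hm', map_smul, LinearMap.smul_apply, map_smul, hxa',
      map_add, LinearMap.add_apply, map_smul, LinearMap.smul_apply])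
  have hαu : ∀ x y, D.ι x (g₃.1 b₀) = D.ι y (g₃.1 b₀) → x = y := by
    intro x y hxy
    by_contra hne
    apply hb₁
    apply D.ι_inj hω (sub_ne_zero.2 hne)
    rw [map_sub, LinearMap.sub_apply, hxy, sub_self]
  have hαn : ∀ n, ω a n = 0 → ∀ b, g.1 (D.ι n b) = D.ι (α n) (g₃.1 b) := fun n hn b => by
    rw [← hTn n hn, hα]
  have haα : ∀ n, ω a n = 0 → ω a (α n) = 0 := by
    intro n hn
    have h1 := h.κg (D.ι n b₀)
    rw [hαn n hn, D.κι, D.κι, hn, zero_smul, map_zero] at h1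
    by_contra hne
    exact hb₁ ((smul_eq_zero.1 h1).resolve_left hne)
  have hαa : α a = μ • a := by
    apply hαu
    rw [← hαn a (hω.alt a), h.gι, map_smul, map_smul, LinearMap.smul_apply]
  have hαnn : ∀ n n', ω a n = 0 → ω a n' = 0 → ω (α n) (α n') = μ * ω n n' := by
    intro n n' hn hn'
    obtain ⟨b', hb'⟩ : ∃ b', fB b₀ b' ≠ 0 := by
      by_contra hc
      push Not at hc
      exact hb₀ (hf.ndl _ hc)
    have h1 := hiso (D.ι n b₀) (D.ι n' b')
    rw [hαn n hn, hαn n' hn', hf.ιι, hf.ιι] at h1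
    have h2 := h.iso hω hf hiso haa' b₀ b'
    rw [← h2] at h1 hb'
    have h3 : fB (g₃.1 b₀) (g₃.1 b') ≠ 0 := right_ne_zero_of_mul hb'
    apply mul_right_cancel₀ h3
    rw [h1]; ring
  have hαna' : ∀ n, ω a n = 0 → ω (α n) (α a') = μ * ω n a' := by
    intro n hn
    have h1 := hcon (α n) n (haα n hn) hn (hαn n hn) b₀
    have h2 : D.κ (α n) (T (D.ι a' b₀)) = D.κ (α n) (g.1 (D.ι a' b₀)) := by
      rw [hTa', map_add, D.κι, hω.skew (α n) a, haα n hn, neg_zero, zero_smul, add_zero]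
    rw [← h2, hα, D.κι] at h1
    exact smul_left_injective F hb₁ h1
  have hsim : ∀ u v, ω (α u) (α v) = μ * ω u v := by
    intro u v
    set n := u - ω a u • a' with hn
    set n' := v - ω a v • a' with hn'
    have han : ω a n = 0 := by rw [hn, map_sub, map_smul, haa', smul_eq_mul, mul_one, sub_self]
    have han' : ω a n' = 0 := by rw [hn', map_sub, map_smul, haa', smul_eq_mul, mul_one, sub_self]
    have e1 : u = n + ω a u • a' := by rw [hn]; abel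
    have e2 : v = n' + ω a v • a' := by rw [hn']; abel
    have e3 : ω (α a') (α n') = μ * ω a' n' := by
      rw [hω.skew, hαna' n' han', hω.skew a' n']; ring
    rw [e1, e2]
    simp only [map_add, map_smul, LinearMap.add_apply, LinearMap.smul_apply, smul_eq_mul, hαnn n n' han han',
      hαna' n han, e3, hω.alt]
    ring
  have hinj : Function.Injective α := by
    rw [← LinearMap.ker_eq_bot, LinearMap.ker_eq_bot']
    intro u hu
    apply hω.nd
    intro v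
    have h1 := hsim u v
    rw [hu, map_zero, LinearMap.zero_apply] at h1
    exact (mul_eq_zero.1 h1.symm).resolve_left hμ
  have hunit : IsUnit α := (LinearMap.isUnit_iff_ker_eq_bot α).2 (LinearMap.ker_eq_bot.2 hinj)
  obtain ⟨αu, hαu'⟩ := hunit
  subst hαu'
  set A := D.mapU hω αu g₃ with hA
  have hAT : A.1 = T := by
    refine D.ext hω fun w b => ?_
    rw [hA, D.mapU_ι, hα]
  have hAa : ∀ b, (A⁻¹).1 (D.ι a b) = D.ι a (μ⁻¹ • (g₃⁻¹).1 b) := by
    intro b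
    have h1 : A.1 (D.ι a (μ⁻¹ • (g₃⁻¹).1 b)) = D.ι a b := by
      rw [hA, D.mapU_ι, hαa, map_smul g₃.1, apply_inv, map_smul, map_smul, LinearMap.smul_apply, smul_smul,
        inv_mul_cancel₀ hμ, one_smul]
    rw [← h1, inv_apply]
  refine ⟨αu, A⁻¹ * g, -(μ⁻¹ • ((g₃⁻¹).1 * r)), hsim, hαa, ?_, by rw [mul_inv_cancel_left]⟩
  refine LinearMap.ext fun v => ?_
  have h1 : g.1 v = A.1 v - D.ι a (r (D.κ a v)) := by
    rw [hAT, hT, LinearMap.add_apply, LinearMap.comp_apply, LinearMap.comp_apply, add_sub_cancel_right]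
  rw [mul_app, h1, map_sub, inv_apply, hAa, LinearMap.add_apply, Module.End.one_apply, TD.cs_apply,
    LinearMap.neg_apply, map_neg, LinearMap.smul_apply, Module.End.mul_apply, sub_eq_add_neg]

/-- A condition on `F` and `k` which allows to isolate a single root element. -/
def FieldOK (ω : LinearMap.BilinForm F (Fin k → F)) : Prop :=
  (∃ ζ : F, ζ ≠ 0 ∧ ζ ^ 2 ≠ 1) ∨
  ((2 : F) ≠ 0 ∧ ∃ u n : Fin k → F, ω u n = 0 ∧ u ≠ 0 ∧ n ≠ 0 ∧ n + u ≠ 0 ∧ n - u ≠ 0) ∨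
  ((2 : F) = 0 ∧ ∃ u v w : Fin k → F, ω u v = 0 ∧ ω u w = 0 ∧ ω v w = 0 ∧ u ≠ 0 ∧ v ≠ 0 ∧ w ≠ 0 ∧
    u + v ≠ 0 ∧ u + w ≠ 0 ∧ v + w ≠ 0 ∧ u + v + w ≠ 0)

theorem cs_mul_cs (D : TD ω B V) (u u' : Fin k → F) (s s' : Module.End F B) :
    D.cs u s * D.cs u' s' = ω u u' • (D.ι u ∘ₗ (s * s') ∘ₗ D.κ u') := by
  refine LinearMap.ext fun v => ?_
  rw [Module.End.mul_apply, TD.cs_apply, TD.cs_apply, D.κι, map_smul, map_smul]
  rfl

theorem cs_smul_vec (D : TD ω B V) (c : F) (u : Fin k → F) (s : Module.End F B) :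
    D.cs (c • u) s = c ^ 2 • D.cs u s := by
  refine LinearMap.ext fun v => ?_
  rw [LinearMap.smul_apply, TD.cs_apply, TD.cs_apply, map_smul, map_smul, LinearMap.smul_apply, LinearMap.smul_apply,
    map_smul, map_smul, smul_smul, pow_two]

theorem cs_add_vec (D : TD ω B V) (u u' : Fin k → F) (s : Module.End F B) :
    D.cs (u + u') s = D.cs u s + D.cs u' s + (D.ι u ∘ₗ s ∘ₗ D.κ u' + D.ι u' ∘ₗ s ∘ₗ D.κ u) := by
  refine LinearMap.ext fun v => ?_
  simp only [TD.cs_apply, LinearMap.add_apply, LinearMap.comp_apply, map_add]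
  abel

/-- Isolating a single element. -/
theorem e8 (hω : Symp ω) (hM : GoodM hω D fB fV M) (hF : FieldOK ω) (ha : a ≠ 0) (s : Module.End F B)
    (hP : ∀ u u' : Fin k → F, u ≠ 0 → u' ≠ 0 → ∃ x ∈ M, x.1 = (1 + D.cs u s) * (1 - D.cs u' s)) :
    ∃ τ : F, s = τ • 1 := by
  have hzero : ∀ u u' : Fin k → F, ω u u' = 0 → D.cs u s * D.cs u' s = 0 := fun u u' h => by
    rw [cs_mul_cs, h, zero_smul]
  have hP' : ∀ u u' : Fin k → F, u ≠ 0 → u' ≠ 0 → ω u u' = 0 →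
      ∃ x ∈ M, x.1 = 1 + (D.cs u s - D.cs u' s) := by
    intro u u' hu hu' huu'
    obtain ⟨x, hx, hx'⟩ := hP u u' hu hu'
    refine ⟨x, hx, ?_⟩
    rw [hx', add_mul, mul_sub, mul_sub, hzero _ _ huu']
    simp only [mul_one, one_mul, sub_zero]
    abel
  rcases hF with ⟨ζ, hζ0, hζ1⟩ | ⟨h2, u, n, hun, hu, hn, hnu, hnu'⟩ | ⟨h2, u, v, w, huv, huw, hvw, hu, hv, hw,
      huv', huw', hvw', huvw⟩
  · obtain ⟨x, hx, hx'⟩ := hP' a (ζ • a) ha (smul_ne_zero hζ0 ha) (by rw [map_smul, hω.alt, smul_zero])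
    rw [cs_smul_vec] at hx'
    have e : D.cs a s - ζ ^ 2 • D.cs a s = D.cs a ((1 - ζ ^ 2) • s) := by
      refine LinearMap.ext fun v => ?_
      simp only [TD.cs_apply, LinearMap.sub_apply, LinearMap.smul_apply, map_smul, sub_smul, one_smul, map_sub]
    rw [e] at hx'
    obtain ⟨τ, hτ⟩ := hM.caseI a ha _ x hx hx'
    refine ⟨(1 - ζ ^ 2)⁻¹ * τ, ?_⟩
    rw [mul_smul, ← hτ, inv_smul_smul₀ (sub_ne_zero.2 (Ne.symm hζ1))]
  · have hnu0 : ω n u = 0 := by rw [hω.skew, hun, neg_zero]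
    obtain ⟨x, hx, hx'⟩ := hP' (n + u) n hnu hn (by
      simp only [map_add, LinearMap.add_apply, hω.alt, hun, hnu0, add_zero])
    obtain ⟨y, hy, hy'⟩ := hP' (n - u) n hnu' hn (by
      simp only [map_sub, LinearMap.sub_apply, hω.alt, hun, hnu0, sub_zero])
    have hadd := cs_add_vec D n u s
    have hsub := cs_add_vec D n (-u) s
    rw [← sub_eq_add_neg] at hsub
    have hneg : D.cs (-u) s = D.cs u s := by
      have := cs_smul_vec D (-1) u s
      rwa [neg_one_smul, neg_one_sq, one_smul] at this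
    have e : x.1 * y.1 = 1 + D.cs u ((2 : F) • s) := by
      have e1 : D.cs u ((2 : F) • s) = D.cs u s + D.cs u s := by
        refine LinearMap.ext fun v => ?_
        simp only [TD.cs_apply, LinearMap.add_apply, two_smul, map_add]
      have e2 : D.ι n ∘ₗ s ∘ₗ D.κ (-u) + D.ι (-u) ∘ₗ s ∘ₗ D.κ n =
          -(D.ι n ∘ₗ s ∘ₗ D.κ u + D.ι u ∘ₗ s ∘ₗ D.κ n) := by
        refine LinearMap.ext fun v => ?_
        simp only [LinearMap.add_apply, LinearMap.comp_apply, map_neg, LinearMap.neg_apply, neg_add_rev]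
        abel
      rw [hneg, e2] at hsub
      have z1 : D.cs (n + u) s * D.cs (n - u) s = 0 := hzero _ _ (by
        simp only [map_add, map_sub, LinearMap.add_apply, LinearMap.sub_apply, hω.alt, hun, hnu0]; ring)
      have z2 : D.cs (n + u) s * D.cs n s = 0 := hzero _ _ (by
        simp only [map_add, LinearMap.add_apply, hω.alt, hun]; ring)
      have z3 : D.cs n s * D.cs (n - u) s = 0 := hzero _ _ (by
        simp only [map_sub, hω.alt, hnu0]; ring)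
      have z4 : D.cs n s * D.cs n s = 0 := hzero _ _ (hω.alt n)
      rw [hx', hy', e1]
      simp only [add_mul, mul_add, sub_mul, mul_sub, z1, z2, z3, z4, one_mul, mul_one, sub_zero, add_zero]
      rw [hadd, hsub]
      abel
    obtain ⟨τ, hτ⟩ := hM.caseI u hu _ (x * y) (M.mul_mem hx hy) (by rw [Units.val_mul, e])
    exact ⟨2⁻¹ * τ, by rw [mul_smul, ← hτ, inv_smul_smul₀ h2]⟩
  · have hvu : ω v u = 0 := by rw [hω.skew, huv, neg_zero]
    have hwu : ω w u = 0 := by rw [hω.skew, huw, neg_zero]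
    have hwv : ω w v = 0 := by rw [hω.skew, hvw, neg_zero]
    have hT : ∀ x : Module.End F V, x + x = 0 := fun x => by
      rw [← two_smul F x, h2, zero_smul]
    have hneg : ∀ x : Module.End F V, -x = x := fun x => neg_eq_of_add_eq_zero_left (hT x)
    obtain ⟨x, hx, hx'⟩ := hP' u v hu hv huv
    obtain ⟨y, hy, hy'⟩ := hP' w (u + v) hw huv' (by
      simp only [map_add, hwu, hwv, add_zero])
    obtain ⟨z, hz, hz'⟩ := hP' (u + w) (v + w) huw' hvw' (by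
      simp only [map_add, LinearMap.add_apply, huv, huw, hwv, hω.alt, add_zero])
    have p1 := cs_add_vec D u v s
    have p2 := cs_add_vec D u w s
    have p3 := cs_add_vec D v w s
    have p4 := cs_add_vec D (u + v) w s
    have p5 : D.ι (u + v) ∘ₗ s ∘ₗ D.κ w + D.ι w ∘ₗ s ∘ₗ D.κ (u + v) =
        (D.ι u ∘ₗ s ∘ₗ D.κ w + D.ι w ∘ₗ s ∘ₗ D.κ u) + (D.ι v ∘ₗ s ∘ₗ D.κ w + D.ι w ∘ₗ s ∘ₗ D.κ v) := by
      refine LinearMap.ext fun v => ?_
      simp only [LinearMap.add_apply, LinearMap.comp_apply, map_add]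
      abel
    rw [p5] at p4
    have q1 : ∀ c d c' d' : Module.End F V, c * c' = 0 → c * d' = 0 → d * c' = 0 → d * d' = 0 →
        (1 + (c - d)) * (1 + (c' - d')) = 1 + ((c + c') - (d + d')) := by
      intro c d c' d' h1 h2 h3 h4
      simp only [add_mul, mul_add, sub_mul, mul_sub, h1, h2, h3, h4, one_mul, mul_one, sub_zero, add_zero]
      abel
    have hxy : x.1 * y.1 = 1 + ((D.cs u s + D.cs w s) - (D.cs v s + D.cs (u + v) s)) := by
      rw [hx', hy']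
      apply q1
      · exact hzero _ _ huw
      · exact hzero _ _ (by simp only [map_add, huv, hω.alt, add_zero])
      · exact hzero _ _ hvw
      · exact hzero _ _ (by simp only [map_add, hvu, hω.alt, add_zero])
    have hxyz : x.1 * y.1 * z.1 = 1 + ((D.cs u s + D.cs w s + D.cs (u + w) s) -
        (D.cs v s + D.cs (u + v) s + D.cs (v + w) s)) := by
      rw [hxy, hz']
      apply q1
      · rw [add_mul, hzero _ _ (show ω u (u + w) = 0 by simp only [map_add, huw, hω.alt, add_zero]),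
          hzero _ _ (show ω w (u + w) = 0 by simp only [map_add, hwu, hω.alt, add_zero]), add_zero]
      · rw [add_mul, hzero _ _ (show ω u (v + w) = 0 by simp only [map_add, huw, huv, add_zero]),
          hzero _ _ (show ω w (v + w) = 0 by simp only [map_add, hwv, hω.alt, add_zero]), add_zero]
      · rw [add_mul, hzero _ _ (show ω v (u + w) = 0 by simp only [map_add, hvw, hvu, add_zero]),
          hzero _ _ (show ω (u + v) (u + w) = 0 by
            simp only [map_add, LinearMap.add_apply, huw, hvw, hvu, hω.alt, add_zero]), add_zero]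
      · rw [add_mul, hzero _ _ (show ω v (v + w) = 0 by simp only [map_add, hvw, hω.alt, add_zero]),
          hzero _ _ (show ω (u + v) (v + w) = 0 by
            simp only [map_add, LinearMap.add_apply, huw, huv, hvw, hω.alt, add_zero]), add_zero]
    have hfin : x.1 * y.1 * z.1 = 1 + D.cs (u + v + w) s := by
      rw [hxyz, p4, p1, p2, p3]
      set A := D.cs u s
      set B' := D.cs v s
      set C := D.cs w s
      set P := D.ι u ∘ₗ s ∘ₗ D.κ v + D.ι v ∘ₗ s ∘ₗ D.κ u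
      set Q := D.ι u ∘ₗ s ∘ₗ D.κ w + D.ι w ∘ₗ s ∘ₗ D.κ u
      set R := D.ι v ∘ₗ s ∘ₗ D.κ w + D.ι w ∘ₗ s ∘ₗ D.κ v
      rw [sub_eq_add_neg, hneg]
      have e : A + C + (A + C + Q) + (B' + (A + B' + P) + (B' + C + R)) =
          A + B' + P + C + (Q + R) + (A + A) + (B' + B') + (C + C) := by abel
      rw [e, hT, hT, hT]
      abel
    obtain ⟨τ, hτ⟩ := hM.caseI _ huvw _ (x * y * z) (M.mul_mem (M.mul_mem hx hy) hz) (by
      rw [Units.val_mul, Units.val_mul, hfin])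
    exact ⟨τ, hτ⟩

/-- **Step 1.** An element of `M` normalising a root group is decomposable. -/
theorem step1 [Nontrivial B] (hω : Symp ω) (hf : D.Forms fB fV) (hM : GoodM hω D fB fV M)
    (hL : LayerC hω D M a) (hF : FieldOK ω) (ha : a ≠ 0) (hμ : μ ≠ 0) (hgM : g ∈ M)
    (hg : ∀ v, g.1 (D.cs a 1 v) = μ • D.cs a 1 (g.1 v)) :
    ∃ (α : (Module.End F (Fin k → F))ˣ) (β : (Module.End F B)ˣ),
      (∀ u v, ω (α.1 u) (α.1 v) = μ * ω u v) ∧ g = D.mapU hω α β := by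
  obtain ⟨a', haa'⟩ := hω.exists_pair ha
  obtain ⟨g₃, h⟩ := exists_NC hω haa' hμ hg
  obtain ⟨α, x, s, hα, hαa, hx, hgx⟩ := e7 hω hf hM hL haa' hμ hgM h
  set A := D.mapU hω α g₃ with hA
  -- contraction
  have hκA : ∀ u v, D.κ (α.1 u) (A.1 v) = μ • g₃.1 (D.κ u v) := by
    intro u v
    have h1 : D.κ (α.1 u) ∘ₗ A.1 = μ • (g₃.1 ∘ₗ D.κ u) := by
      refine D.ext hω fun w b => ?_
      rw [LinearMap.comp_apply, LinearMap.smul_apply, LinearMap.comp_apply, hA, D.mapU_ι, D.κι, D.κι, hα,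
        map_smul, smul_smul]
    exact LinearMap.congr_fun h1 v
  have hκA' : ∀ u v, D.κ u ((A⁻¹).1 v) = μ⁻¹ • (g₃⁻¹).1 (D.κ (α.1 u) v) := by
    intro u v
    have h1 := hκA u ((A⁻¹).1 v)
    rw [apply_inv] at h1
    rw [h1, map_smul, inv_apply, inv_smul_smul₀ hμ]
  set s' : Module.End F B := μ⁻¹ • (g₃.1 * s * (g₃⁻¹).1) with hs'
  have hAcs : ∀ u, A.1 * D.cs u s * (A⁻¹).1 = D.cs (α.1 u) s' := by
    intro u
    refine LinearMap.ext fun v => ?_
    rw [Module.End.mul_apply, Module.End.mul_apply, TD.cs_apply, hκA', hA, D.mapU_ι, TD.cs_apply, hs',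
      LinearMap.smul_apply, Module.End.mul_apply, Module.End.mul_apply, map_smul, map_smul]
  have hcs : ∀ (δ : (Module.End F (Fin k → F))ˣ), IsoW ω δ → ∀ u (s : Module.End F B),
      (D.mapU hω δ 1).1 * D.cs u s * ((D.mapU hω δ 1)⁻¹).1 = D.cs (δ.1 u) s := by
    intro δ hδ u s
    refine LinearMap.ext fun v => ?_
    rw [Module.End.mul_apply, Module.End.mul_apply, TD.cs_apply, D.mapU_inv hω, κ_mapU' hω D hδ.inv, inv_inv,
      inv_one, Units.val_one, Module.End.one_apply, D.mapU_ι, TD.cs_apply]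
    rfl
  have hxinv : (x⁻¹).1 = 1 - D.cs a s := by
    have h1 : x.1 * (1 - D.cs a s) = 1 := by
      rw [hx, add_mul, mul_sub, mul_sub, cs_mul_cs, hω.alt, zero_smul]
      simp
    have h2 : x⁻¹ = x⁻¹ * 1 := (mul_one _).symm
    calc (x⁻¹).1 = (x⁻¹).1 * (x.1 * (1 - D.cs a s)) := by rw [h1, mul_one]
      _ = 1 - D.cs a s := by rw [← mul_assoc, ← Units.val_mul, inv_mul_cancel, Units.val_one, one_mul]
  -- the elements `(1 + c_u s') (1 - c_u' s')`
  have hP0 : ∀ u', u' ≠ 0 → ∃ y ∈ M, y.1 = (1 + D.cs (α.1 a) s') * (1 - D.cs u' s') := by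
    intro u' hu'
    have hu₁ : (α⁻¹).1 u' ≠ 0 := fun h0 => hu' (by rw [← apply_inv α u', h0, map_zero])
    obtain ⟨γ, hγ, hγa⟩ := exists_iso_of_ne hω ha hu₁
    have hγ' : IsoW ω (α * γ * α⁻¹) := by
      intro u v
      have h1 : ∀ u v, ω ((α⁻¹).1 u) ((α⁻¹).1 v) = μ⁻¹ * ω u v := by
        intro u v
        have := hα ((α⁻¹).1 u) ((α⁻¹).1 v)
        rw [apply_inv, apply_inv] at this
        rw [this, inv_mul_cancel_left₀ hμ]
      rw [mul_app, mul_app, mul_app, mul_app, hα, hγ, h1, mul_inv_cancel_left₀ hμ]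
    refine ⟨g * D.mapU hω γ 1 * g⁻¹ * (D.mapU hω (α * γ * α⁻¹) 1)⁻¹,
      M.mul_mem (M.mul_mem (M.mul_mem hgM (hM.sp _ hγ)) (M.inv_mem hgM)) (M.inv_mem (hM.sp _ hγ')), ?_⟩
    have e1 : g * D.mapU hω γ 1 * g⁻¹ * (D.mapU hω (α * γ * α⁻¹) 1)⁻¹ =
        (A * x * A⁻¹) * (A * ((D.mapU hω γ 1) * x⁻¹ * (D.mapU hω γ 1)⁻¹) * A⁻¹) := by
      have e2 : (D.mapU hω (α * γ * α⁻¹) 1)⁻¹ = A * (D.mapU hω γ 1)⁻¹ * A⁻¹ := by
        rw [hA, D.mapU_inv hω, D.mapU_inv hω, D.mapU_inv hω, D.mapU_mul, D.mapU_mul]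
        congr 1 <;> group
      rw [e2, hgx]
      group
    rw [e1, Units.val_mul]
    congr 1
    · rw [Units.val_mul, Units.val_mul, hx, mul_add, add_mul, mul_one, hAcs, ← Units.val_mul, mul_inv_cancel,
        Units.val_one]
    · rw [Units.val_mul, Units.val_mul, Units.val_mul, Units.val_mul, hxinv, mul_sub, sub_mul, mul_one, hcs γ hγ,
        ← Units.val_mul, mul_inv_cancel, Units.val_one, mul_sub, sub_mul, mul_one, hAcs, ← Units.val_mul,
        mul_inv_cancel, Units.val_one, hγa, apply_inv]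
  have hαa0 : α.1 a ≠ 0 := by rw [hαa]; exact smul_ne_zero hμ ha
  have hP : ∀ u u' : Fin k → F, u ≠ 0 → u' ≠ 0 →
      ∃ y ∈ M, y.1 = (1 + D.cs u s') * (1 - D.cs u' s') := by
    intro u u' hu hu'
    obtain ⟨δ, hδ, hδa⟩ := exists_iso_of_ne hω hαa0 hu
    have hu₁ : (δ⁻¹).1 u' ≠ 0 := fun h0 => hu' (by rw [← apply_inv δ u', h0, map_zero])
    obtain ⟨y, hy, hy'⟩ := hP0 _ hu₁
    refine ⟨D.mapU hω δ 1 * y * (D.mapU hω δ 1)⁻¹, M.mul_mem (M.mul_mem (hM.sp _ hδ) hy)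
      (M.inv_mem (hM.sp _ hδ)), ?_⟩
    have e1 : ((D.mapU hω δ 1)⁻¹).1 * (D.mapU hω δ 1).1 = 1 := by
      rw [← Units.val_mul, inv_mul_cancel, Units.val_one]
    have e2 : (D.mapU hω δ 1).1 * ((D.mapU hω δ 1)⁻¹).1 = 1 := by
      rw [← Units.val_mul, mul_inv_cancel, Units.val_one]
    have e3 : ∀ X Y : Module.End F V, (D.mapU hω δ 1).1 * (X * Y) * ((D.mapU hω δ 1)⁻¹).1 =
        ((D.mapU hω δ 1).1 * X * ((D.mapU hω δ 1)⁻¹).1) * ((D.mapU hω δ 1).1 * Y * ((D.mapU hω δ 1)⁻¹).1) := by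
      intro X Y
      calc _ = (D.mapU hω δ 1).1 * X * (1 * Y) * ((D.mapU hω δ 1)⁻¹).1 := by
            rw [one_mul]; simp only [mul_assoc]
        _ = _ := by rw [← e1]; simp only [mul_assoc]
    rw [Units.val_mul, Units.val_mul, hy', e3, mul_add, add_mul, mul_one, hcs δ hδ, e2, hδa, mul_sub, sub_mul,
      mul_one, hcs δ hδ, e2, apply_inv]
  obtain ⟨τ, hτ⟩ := e8 hω hM hF ha s' hP
  -- `s` is scalar
  have hsτ : s = (μ * τ) • 1 := by
    have h1 : s = μ • ((g₃⁻¹).1 * s' * g₃.1) := by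
      rw [hs', mul_smul_comm, smul_mul_assoc, smul_smul, mul_inv_cancel₀ hμ, one_smul]
      have e1 : (g₃⁻¹).1 * g₃.1 = 1 := by rw [← Units.val_mul, inv_mul_cancel, Units.val_one]
      calc s = ((g₃⁻¹).1 * g₃.1) * s * ((g₃⁻¹).1 * g₃.1) := by rw [e1, one_mul, mul_one]
        _ = _ := by simp only [mul_assoc]
    rw [h1, hτ, mul_smul_comm, mul_one, smul_mul_assoc, ← Units.val_mul, inv_mul_cancel, Units.val_one, smul_smul]
  refine ⟨α * tv hω (μ * τ) a, g₃, ?_, ?_⟩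
  · intro u v
    rw [mul_app, mul_app, hα, isoW_tv hω]
  · rw [hgx]
    have h1 : x = D.mapU hω (tv hω (μ * τ) a) 1 := by
      apply Units.ext
      rw [hx, mapU_tv_val, hsτ]
    rw [h1, hA, D.mapU_mul, mul_one]

end Main

end Cfsg.Agent.H889.C7
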