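import Mathlib
import Cfsg.Agent.H889.C7.Tens
import Cfsg.Agent.H889.C7.Step1

/-!
Irreducibility and Schur's lemma for the slot groups on `T n`; triviality of the layer.
-/

set_option autoImplicit false
set_option linter.unusedSectionVars false
set_option linter.unusedVariables false
set_option linter.unusedSimpArgs false

namespace Cfsg.Agent.H889.C7

open Module Cfsg.Agent.H889

variable {F : Type*} [Field F] {k : ℕ}

section Vectors

variable {ω : LinearMap.BilinForm F (Fin k → F)} (hω : Symp ω)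
include hω

theorem exists_perp_avoid {m : ℕ} (v : Fin m → (Fin k → F)) (p : Fin k → F) (h : m + 2 ≤ k) :
    ∃ w, (∀ i, ω (v i) w = 0) ∧ ∀ c : F, w ≠ c • p := by
  let Φ : (Fin k → F) →ₗ[F] (Fin m → F) := LinearMap.pi fun i => ω (v i)
  have h1 : k ≤ m + finrank F (LinearMap.ker Φ) := by
    have h2 := LinearMap.finrank_range_add_finrank_ker Φ
    have h3 : finrank F (LinearMap.range Φ) ≤ m := by
      have := Submodule.finrank_le (LinearMap.range Φ)
      rwa [finrank_fin_fun] at this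
    rw [finrank_fin_fun] at h2
    omega
  by_contra hcon
  push Not at hcon
  have h4 : LinearMap.ker Φ ≤ Submodule.span F {p} := by
    intro w hw
    rw [LinearMap.mem_ker] at hw
    obtain ⟨c, hc⟩ := hcon w fun i => congrFun hw i
    exact Submodule.mem_span_singleton.2 ⟨c, hc.symm⟩
  have h5 := Submodule.finrank_mono h4
  have h6 : finrank F (Submodule.span F {p}) ≤ 1 := by
    have := finrank_span_le_card (R := F) ({p} : Set (Fin k → F))
    simpa using this
  omega

theorem exists_mid {w w' : Fin k → F} (hw : w ≠ 0) (hw' : w' ≠ 0) : ∃ z, ω w z ≠ 0 ∧ ω z w' ≠ 0 := by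
  obtain ⟨z1, h1⟩ := hω.exists_pair hw
  obtain ⟨z2, h2⟩ := hω.exists_pair hw'
  have h2' : ω z2 w' = -1 := by rw [hω.skew, h2]
  by_cases c1 : ω z1 w' = 0
  · by_cases c2 : ω w z2 = 0
    · refine ⟨z1 + z2, by rw [map_add, c2, add_zero, h1]; exact one_ne_zero, ?_⟩
      rw [map_add, LinearMap.add_apply, c1, zero_add, h2']
      exact neg_ne_zero.2 one_ne_zero
    · exact ⟨z2, c2, by rw [h2']; exact neg_ne_zero.2 one_ne_zero⟩
  · exact ⟨z1, by rw [h1]; exact one_ne_zero, c1⟩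

/-- A partner orthogonal to a hyperbolic pair. -/
theorem exists_pair_perp {w w' x : Fin k → F} (h : ω w w' = 1) (hx : x ≠ 0) (hwx : ω w x = 0)
    (hwx' : ω w' x = 0) : ∃ y, ω x y = 1 ∧ ω w y = 0 ∧ ω w' y = 0 := by
  obtain ⟨y₀, hy₀⟩ := hω.exists_pair hx
  have h' : ω w' w = -1 := by rw [hω.skew, h]
  have h1 : ω x w = 0 := by rw [hω.skew, hwx, neg_zero]
  have h2 : ω x w' = 0 := by rw [hω.skew, hwx', neg_zero]
  refine ⟨y₀ - ω w y₀ • w' + ω w' y₀ • w, ?_, ?_, ?_⟩
  · simp only [map_add, map_sub, map_smul, h1, h2, hy₀, smul_eq_mul]; ring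
  · simp only [map_add, map_sub, map_smul, h, hω.alt, smul_eq_mul]; ring
  · simp only [map_add, map_sub, map_smul, h', hω.alt, smul_eq_mul]; ring

/-- Two orthogonal hyperbolic pairs. -/
theorem exists_two_pairs (hk : 4 ≤ k) {w w' : Fin k → F} (h : ω w w' = 1) :
    ∃ x y, ω x y = 1 ∧ ω w x = 0 ∧ ω w y = 0 ∧ ω w' x = 0 ∧ ω w' y = 0 := by
  obtain ⟨x, hx, hx'⟩ := exists_perp_avoid hω ![w, w'] 0 (by omega)
  have hx0 : x ≠ 0 := by simpa using hx' 0
  have h0 := hx 0
  have h1 := hx 1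
  simp only [Matrix.cons_val_zero, Matrix.cons_val_one, Matrix.cons_val_fin_one] at h0 h1
  obtain ⟨y, hy1, hy2, hy3⟩ := exists_pair_perp hω h hx0 h0 h1
  exact ⟨x, y, hy1, h0, hy2, h1, hy3⟩

/-- Three orthogonal hyperbolic pairs. -/
theorem exists_three_pairs (hk : 6 ≤ k) :
    ∃ w w' x x' y y' : Fin k → F, ω w w' = 1 ∧ ω x x' = 1 ∧ ω y y' = 1 ∧ ω w x = 0 ∧ ω w x' = 0 ∧
      ω w y = 0 ∧ ω w y' = 0 ∧ ω w' x = 0 ∧ ω w' x' = 0 ∧ ω w' y = 0 ∧ ω w' y' = 0 ∧
      ω x y = 0 ∧ ω x y' = 0 ∧ ω x' y = 0 ∧ ω x' y' = 0 := by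
  have hne : (Pi.single (⟨0, by omega⟩ : Fin k) (1 : F) : Fin k → F) ≠ 0 := by
    intro h0
    have := congrFun h0 ⟨0, by omega⟩
    rw [Pi.single_eq_same] at this
    exact one_ne_zero this
  obtain ⟨w', hw'⟩ := hω.exists_pair hne
  set w : Fin k → F := Pi.single (⟨0, by omega⟩ : Fin k) (1 : F)
  obtain ⟨x, x', hxx', h1, h2, h3, h4⟩ := exists_two_pairs hω (by omega) hw'
  obtain ⟨y, hy, hy'⟩ := exists_perp_avoid hω ![w, w', x, x'] 0 (by omega)
  have hy0 : y ≠ 0 := by simpa using hy' 0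
  have e0 := hy 0
  have e1 := hy 1
  have e2 := hy 2
  have e3 := hy 3
  simp only [Matrix.cons_val_zero, Matrix.cons_val_one, Matrix.cons_val_fin_one, Matrix.cons_val] at e0 e1 e2 e3
  obtain ⟨y₀, hy₀⟩ := hω.exists_pair hy0
  have s1 : ω w' w = -1 := by rw [hω.skew, hw']
  have s2 : ω x' x = -1 := by rw [hω.skew, hxx']
  have s3 : ω y w = 0 := by rw [hω.skew, e0, neg_zero]
  have s4 : ω y w' = 0 := by rw [hω.skew, e1, neg_zero]
  have s5 : ω y x = 0 := by rw [hω.skew, e2, neg_zero]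
  have s6 : ω y x' = 0 := by rw [hω.skew, e3, neg_zero]
  have s7 : ω x w = 0 := by rw [hω.skew, h1, neg_zero]
  have s8 : ω x' w = 0 := by rw [hω.skew, h2, neg_zero]
  have s9 : ω x w' = 0 := by rw [hω.skew, h3, neg_zero]
  have s10 : ω x' w' = 0 := by rw [hω.skew, h4, neg_zero]
  refine ⟨w, w', x, x', y, y₀ - ω w y₀ • w' + ω w' y₀ • w - ω x y₀ • x' + ω x' y₀ • x, hw', hxx', ?_, h1, h2,
    e0, ?_, h3, h4, e1, ?_, e2, ?_, e3, ?_⟩
  all_goals
    simp only [map_add, map_sub, map_smul, smul_eq_mul, hω.alt, hw', hxx', h1, h2, h3, h4, s1, s2, s3, s4, s5, s6,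
      s7, s8, s9, s10, hy₀]
    ring

end Vectors

section TDlemmas

variable {ω : LinearMap.BilinForm F (Fin k → F)} {B V : Type*} [AddCommGroup B] [Module F B]
  [AddCommGroup V] [Module F V] (D : TD ω B V)

/-- Stabilising all `a ⊗ B` implies commuting with all `c_u`. -/
theorem comm_of_stab (hω : Symp ω) {s : Module.End F V} (h : ∀ a b, ∃ b', s (D.ι a b) = D.ι a b')
    (u : Fin k → F) : s * D.cs u 1 = D.cs u 1 * s := by
  refine D.ext hω fun a b => ?_
  rw [Module.End.mul_apply, Module.End.mul_apply, TD.cs_apply, Module.End.one_apply, D.κι, map_smul, map_smul]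
  by_cases hua : ω u a = 0
  · obtain ⟨b', hb'⟩ := h a b
    rw [hb', TD.cs_apply, D.κι, hua, zero_smul, zero_smul, map_zero, map_zero]
  · obtain ⟨b₁, h₁⟩ := h u b
    obtain ⟨b₂, h₂⟩ := h a b
    obtain ⟨b₃, h₃⟩ := h (u + a) b
    rw [(D.ι).map_add, LinearMap.add_apply, map_add, h₁, h₂, LinearMap.add_apply] at h₃
    have e : D.ι u (b₁ - b₃) + D.ι a (b₂ - b₃) = 0 := by
      rw [map_sub, map_sub]
      have := sub_eq_zero.2 h₃
      rw [← this]; abel
    have e1 := D.indep hω (w := u) (w' := a) (fun c hc => hua (by rw [hc, map_smul, LinearMap.smul_apply, hω.alt,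
      smul_zero])) e
    have e2 := D.indep hω (w := a) (w' := u) (b := b₂ - b₃) (b' := b₁ - b₃) (fun c hc => hua (by
      rw [hc, map_smul, hω.alt, smul_zero])) (by rw [add_comm]; exact e)
    have e3 : b₁ = b₂ := by rw [sub_eq_zero.1 e1, sub_eq_zero.1 e2]
    rw [h₁, h₂, TD.cs_apply, D.κι, Module.End.one_apply, map_smul, e3]

/-- Commuting with all `c_u` implies being `1 ⊗ s'`. -/
theorem one_map_of_comm (hω : Symp ω) {a₀ : Fin k → F} (ha₀ : a₀ ≠ 0) {s : Module.End F V}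
    (h : ∀ u, s * D.cs u 1 = D.cs u 1 * s) : ∃ s' : Module.End F B, s = D.map hω 1 s' := by
  have h0 : ∀ u v, s (D.cs u 1 v) = D.cs u 1 (s v) := fun u v => LinearMap.congr_fun (h u) v
  -- `s ι u b = ι u (κ u s ι u' b)`
  have h1 : ∀ u u' b, ω u u' ≠ 0 → s (D.ι u b) = D.ι u ((ω u u')⁻¹ • D.κ u (s (D.ι u' b))) := by
    intro u u' b huu'
    have e := h0 u (D.ι u' b)
    rw [TD.cs_apply, TD.cs_apply, D.κι, Module.End.one_apply, Module.End.one_apply, map_smul, map_smul] at e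
    rw [map_smul, ← e, smul_smul, inv_mul_cancel₀ huu', one_smul]
  have h2 : ∀ u b, ∃ b', s (D.ι u b) = D.ι u b' := by
    intro u b
    by_cases hu : u = 0
    · exact ⟨0, by rw [hu]; simp⟩
    · obtain ⟨u', hu'⟩ := hω.exists_pair hu
      exact ⟨_, h1 u u' b (by rw [hu']; exact one_ne_zero)⟩
  have h3 : ∀ u a b b' b'', ω u a ≠ 0 → s (D.ι u b) = D.ι u b' → s (D.ι a b) = D.ι a b'' → b' = b'' := by
    intro u a b b₁ b₂ hua h₁ h₂
    obtain ⟨b₃, h₃⟩ := h2 (u + a) b
    rw [(D.ι).map_add, LinearMap.add_apply, map_add, h₁, h₂, LinearMap.add_apply] at h₃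
    have e : D.ι u (b₁ - b₃) + D.ι a (b₂ - b₃) = 0 := by
      rw [map_sub, map_sub]
      have := sub_eq_zero.2 h₃
      rw [← this]; abel
    have e1 := D.indep hω (w := u) (w' := a) (fun c hc => hua (by rw [hc, map_smul, LinearMap.smul_apply, hω.alt,
      smul_zero])) e
    have e2 := D.indep hω (w := a) (w' := u) (b := b₂ - b₃) (b' := b₁ - b₃) (fun c hc => hua (by
      rw [hc, map_smul, hω.alt, smul_zero])) (by rw [add_comm]; exact e)
    rw [sub_eq_zero.1 e1, sub_eq_zero.1 e2]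
  obtain ⟨a₁, ha₁⟩ := hω.exists_pair ha₀
  set s' : Module.End F B := D.κ a₀ ∘ₗ s ∘ₗ D.ι a₁ with hs'
  have h4 : ∀ b, s (D.ι a₀ b) = D.ι a₀ (s' b) := by
    intro b
    rw [h1 a₀ a₁ b (by rw [ha₁]; exact one_ne_zero), ha₁, inv_one, one_smul]
    rfl
  refine ⟨s', D.ext hω fun w b => ?_⟩
  rw [D.map_ι, Module.End.one_apply]
  by_cases hw : w = 0
  · rw [hw]; simp
  · obtain ⟨z, hz1, hz2⟩ := exists_mid hω ha₀ hw
    obtain ⟨b₁, hb₁⟩ := h2 z b
    obtain ⟨b₂, hb₂⟩ := h2 w b
    rw [hb₂, h3 a₀ z b _ _ hz1 (h4 b) hb₁, h3 z w b _ _ hz2 hb₁ hb₂]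

end TDlemmas

section Tn

variable {ω : LinearMap.BilinForm F (Fin k → F)} (hω : Symp ω)
include hω

theorem sE_tv_apply {n : ℕ} (i : Fin (n + 1)) (c : F) (u : Fin k → F) (v : T F k (n + 1)) :
    sE i (tv hω c u).1 v = v + ιT i u (c • κT ω i u v) := by
  have h := mapU_tv_apply hω (DT hω i) c u v
  rw [mapU_sU] at h
  exact h

/-- The slot groups act irreducibly. -/
theorem irr : ∀ (n : ℕ) (X : Submodule F (T F k n)),
    (∀ (j : Fin n) (α : (Module.End F (Fin k → F))ˣ), IsoW ω α → ∀ v ∈ X, sE j α.1 v ∈ X) →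
    ∀ v ∈ X, v ≠ 0 → X = ⊤ := by
  intro n
  induction n with
  | zero =>
    intro X _ v hv hv0
    rw [eq_top_iff]
    intro x _
    have h1 : v default ≠ 0 := by
      intro h0
      apply hv0
      rw [tp_zero_eq v, h0, zero_smul]
    have h2 : x = (x default * (v default)⁻¹) • v := by
      rw [tp_zero_eq v, smul_smul]
      conv_lhs => rw [tp_zero_eq x]
      congr 1
      rw [Pi.smul_apply, tp_apply, Fin.prod_univ_zero, smul_eq_mul, mul_one, mul_assoc, inv_mul_cancel₀ h1, mul_one]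
    rw [h2]
    exact X.smul_mem _ hv
  | succ n ih =>
    intro X hX v hv hv0
    obtain ⟨u, hu⟩ : ∃ u, κT ω (0 : Fin (n + 1)) u v ≠ 0 := by
      by_contra hcon
      push Not at hcon
      exact hv0 ((DT hω (0 : Fin (n + 1))).inj v hcon)
    have hu0 : u ≠ 0 := by
      rintro rfl
      rw [map_zero] at hu
      exact hu rfl
    have h1 : ιT 0 u (κT ω (0 : Fin (n + 1)) u v) ∈ X := by
      have h2 := hX 0 _ (isoW_tv hω 1 u) v hv
      rw [sE_tv_apply, one_smul] at h2
      have := X.sub_mem h2 hv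
      rwa [add_sub_cancel_left] at this
    let Y : Submodule F (T F k n) :=
      { carrier := {b | ∀ w, ιT 0 w b ∈ X}
        zero_mem' := fun w => by rw [map_zero]; exact X.zero_mem
        add_mem' := fun {b b'} hb hb' w => by rw [map_add]; exact X.add_mem (hb w) (hb' w)
        smul_mem' := fun c b hb w => by rw [map_smul]; exact X.smul_mem c (hb w) }
    have hY : Y = ⊤ := by
      refine ih Y ?_ (κT ω 0 u v) ?_ hu
      · intro j α hα b hb w
        rw [← sE_ιT_ne]
        exact hX _ _ hα _ (hb w)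
      · intro w
        by_cases hw : w = 0
        · rw [hw, map_zero]; exact X.zero_mem
        · obtain ⟨α, hα, hαu⟩ := exists_iso_of_ne hω hu0 hw
          have := hX 0 α hα _ h1
          rwa [sE_ιT_self, hαu] at this
    rw [eq_top_iff]
    intro x _
    rw [(DT hω (0 : Fin (n + 1))).expand hω x]
    refine X.sum_mem fun p _ => ?_
    have h3 : (DT hω (0 : Fin (n + 1))).κ (TD.dualv hω p) x ∈ Y := by rw [hY]; trivial
    exact h3 _

/-- Schur's lemma. -/
theorem schur (hk : 0 < k) : ∀ (n : ℕ) (s : Module.End F (T F k n)),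
    (∀ (j : Fin n) (u : Fin k → F), s * sE j (rk ω u u) = sE j (rk ω u u) * s) → ∃ τ : F, s = τ • 1 := by
  intro n
  induction n with
  | zero =>
    intro s _
    refine ⟨s (tp fun i => 0) default, LinearMap.ext fun v => ?_⟩
    have h1 : tp (fun i : Fin 0 => (0 : Fin k → F)) default = 1 := by rw [tp_apply, Fin.prod_univ_zero]
    rw [tp_zero_eq v, map_smul, LinearMap.smul_apply, Module.End.one_apply, tp_zero_eq (s _), smul_comm,
      Pi.smul_apply, h1, smul_eq_mul, mul_one]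
  | succ n ih =>
    intro s hs
    have hne : (Pi.single (⟨0, hk⟩ : Fin k) (1 : F) : Fin k → F) ≠ 0 := by
      intro h0
      have := congrFun h0 ⟨0, hk⟩
      rw [Pi.single_eq_same] at this
      exact one_ne_zero this
    have hcs : ∀ (i : Fin (n + 1)) (u : Fin k → F), (DT hω i).cs u 1 = sE i (rk ω u u) := by
      intro i u
      refine (DT hω i).ext hω fun w b => ?_
      rw [TD.cs_apply, Module.End.one_apply, TD.κι, DT_ι, sE_ιT_self, rk_apply, map_smul, map_smul,
        LinearMap.smul_apply]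
    obtain ⟨s', hs'⟩ := one_map_of_comm (DT hω (0 : Fin (n + 1))) hω hne (s := s) (fun u => by
      rw [hcs]; exact hs 0 u)
    obtain ⟨τ, hτ⟩ := ih s' (by
      intro j u
      have h1 := hs ((0 : Fin (n + 1)).succAbove j) u
      rw [hs', ← map_one_sE hω 0 j, TD.map_mul, TD.map_mul, mul_one] at h1
      -- compare
      refine LinearMap.ext fun b => ?_
      have h2 := LinearMap.congr_fun h1 (ιT 0 (Pi.single (⟨0, hk⟩ : Fin k) (1 : F)) b)
      rw [← DT_ι hω 0, TD.map_ι, TD.map_ι, Module.End.one_apply] at h2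
      have h3 := (DT hω (0 : Fin (n + 1))).ι_inj hω hne (b := (s' * sE j (rk ω u u)) b - (sE j (rk ω u u) * s') b)
        (by rw [map_sub, h2, sub_self])
      exact sub_eq_zero.1 h3)
    refine ⟨τ, ?_⟩
    rw [hs', hτ]
    refine (DT hω (0 : Fin (n + 1))).ext hω fun w b => ?_
    rw [TD.map_ι, Module.End.one_apply, LinearMap.smul_apply, LinearMap.smul_apply, Module.End.one_apply,
      Module.End.one_apply, map_smul]

end Tn

end Cfsg.Agent.H889.C7
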