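import Mathlib
import Cfsg.Agent.H889.C7.Triv

/-!
The triviality of the layer for `T n`.
-/

set_option autoImplicit false
set_option linter.unusedSectionVars false
set_option linter.unusedVariables false
set_option linter.unusedSimpArgs false

namespace Cfsg.Agent.H889.C7

open Module Cfsg.Agent.H889

variable {F : Type*} [Field F] {k : ℕ} {ω : LinearMap.BilinForm F (Fin k → F)}

/-- Invariance under conjugation by the slot groups. -/
def SlotInv (ω : LinearMap.BilinForm F (Fin k → F)) {n : ℕ}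
    (T' : Submodule F (Module.End F (T F k n))) : Prop :=
  ∀ (j : Fin n) (α : (Module.End F (Fin k → F))ˣ), IsoW ω α → ∀ s ∈ T', sE j α.1 * s * sE j (α⁻¹).1 ∈ T'

/-- The quadratic constraint. -/
def Constr (ω : LinearMap.BilinForm F (Fin k → F)) {n : ℕ}
    (T' : Submodule F (Module.End F (T F k n))) : Prop :=
  ∀ s ∈ T', ∀ s' ∈ T', ∃ τ : F, ∀ b b', fT ω n (s b) (s' b') + fT ω n (s' b) (s b') = τ * fT ω n b b'

theorem ring_id {R : Type*} [Ring R] (C C' s : R) (z1 : C * C' = 0) (z2 : C' * C = 0) :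
    C' * (C * s - s * C - C * s * C) - (C * s - s * C - C * s * C) * C' -
      C' * (C * s - s * C - C * s * C) * C' = -(C * s * C' + C' * s * C) := by
  have e1 : C' * (C * s) = 0 := by rw [← mul_assoc, z2, zero_mul]
  have e2 : C' * (C * s * C) = 0 := by rw [mul_assoc C, ← mul_assoc, z2, zero_mul]
  have e3 : s * C * C' = 0 := by rw [mul_assoc, z1, mul_zero]
  have e4 : C * s * C * C' = 0 := by rw [mul_assoc, z1, mul_zero]
  have e5 : C' * (s * C) * C' = 0 := by rw [mul_assoc, mul_assoc, z1, mul_zero, mul_zero]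
  simp only [mul_sub, sub_mul, e1, e2, e3, e4, zero_mul, mul_zero, sub_zero, zero_sub, neg_mul, e5, neg_zero]
  rw [← mul_assoc]
  abel

theorem neg_one_smul_end {W : Type*} [AddCommGroup W] [Module F W] (x : Module.End F W) :
    (-1 : F) • x = -x := neg_one_smul F x

section

variable (hω : Symp ω)
include hω

theorem C_eq {n : ℕ} (i : Fin (n + 1)) (u : Fin k → F) :
    sE i (rk ω u u) = (DT hω i).cs u 1 := by
  refine (DT hω i).ext hω fun w b => ?_
  rw [TD.cs_apply, Module.End.one_apply, TD.κι, DT_ι, sE_ιT_self, rk_apply, map_smul, map_smul,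
    LinearMap.smul_apply]

theorem sE_tv {n : ℕ} (i : Fin n) (u : Fin k → F) :
    sE i (tv hω 1 u).1 = 1 + sE i (rk ω u u) := by
  rw [tv, oneAdd_val, sE_add, sE_one, one_smul]

theorem sE_tv_inv {n : ℕ} (i : Fin n) (u : Fin k → F) :
    sE i ((tv hω 1 u)⁻¹).1 = 1 - sE i (rk ω u u) := by
  have h : ((tv hω 1 u)⁻¹).1 = 1 + (-1 : F) • rk ω u u := by
    have : ((tv hω 1 u)⁻¹).1 = 1 - (1 : F) • rk ω u u := rfl
    rw [this, one_smul, neg_one_smul_end, sub_eq_add_neg]
  rw [h, sE_add, sE_one, sE_smul, neg_one_smul_end, sub_eq_add_neg]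

omit hω in
theorem sE_rk_mul {n : ℕ} (i : Fin n) (u u' : Fin k → F) (h : ω u u' = 0) :
    sE i (rk ω u u) * sE i (rk ω u' u') = 0 := by
  rw [← sE_mul]
  have : rk ω u u * rk ω u' u' = 0 := by
    refine LinearMap.ext fun w => ?_
    rw [Module.End.mul_apply, rk_apply, rk_apply, map_smul, h, smul_zero, zero_smul, LinearMap.zero_apply]
  rw [this]
  have h0 := sE_smul i (0 : F) (0 : Module.End F (Fin k → F))
  rw [zero_smul, zero_smul] at h0
  exact h0

theorem inv_d {n : ℕ} {T' : Submodule F (Module.End F (T F k n))} (hT : SlotInv ω T') (i : Fin n)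
    (u : Fin k → F) {s : Module.End F (T F k n)} (hs : s ∈ T') :
    sE i (rk ω u u) * s - s * sE i (rk ω u u) - sE i (rk ω u u) * s * sE i (rk ω u u) ∈ T' := by
  have h1 := hT i _ (isoW_tv hω 1 u) s hs
  rw [sE_tv, sE_tv_inv] at h1
  have h2 := T'.sub_mem h1 hs
  convert h2 using 1
  simp only [add_mul, mul_sub, one_mul, mul_one]
  abel

theorem inv_pair {n : ℕ} {T' : Submodule F (Module.End F (T F k n))} (hT : SlotInv ω T') (i : Fin n)
    {u u' : Fin k → F} (huu' : ω u u' = 0) {s : Module.End F (T F k n)} (hs : s ∈ T') :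
    sE i (rk ω u u) * s * sE i (rk ω u' u') + sE i (rk ω u' u') * s * sE i (rk ω u u) ∈ T' := by
  have h1 := inv_d hω hT i u' (inv_d hω hT i u hs)
  have hu'u : ω u' u = 0 := by rw [hω.skew, huu', neg_zero]
  have z1 := sE_rk_mul (ω := ω) i u u' huu'
  have z2 := sE_rk_mul (ω := ω) i u' u hu'u
  set C := sE i (rk ω u u)
  set C' := sE i (rk ω u' u')
  have e := ring_id C C' s z1 z2
  rw [e] at h1
  have := T'.neg_mem h1
  rwa [neg_neg] at this

theorem inv_csc {n : ℕ} {T' : Submodule F (Module.End F (T F k n))} (hT : SlotInv ω T') (h2 : (2 : F) ≠ 0)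
    (i : Fin n) (u : Fin k → F) {s : Module.End F (T F k n)} (hs : s ∈ T') :
    sE i (rk ω u u) * s * sE i (rk ω u u) ∈ T' := by
  have h1 := hT i _ (isoW_tv hω 1 u) s hs
  have h1' := hT i _ (isoW_tv hω 1 u).inv s hs
  rw [inv_inv] at h1'
  rw [sE_tv, sE_tv_inv] at h1 h1'
  have h3 := T'.smul_mem (2⁻¹ : F) (T'.sub_mem (T'.smul_mem (2 : F) hs) (T'.add_mem h1 h1'))
  convert h3 using 1
  set C := sE i (rk ω u u)
  have e : (2 : F) • s - ((1 + C) * s * (1 - C) + (1 - C) * s * (1 + C)) = (2 : F) • (C * s * C) := by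
    rw [two_smul, two_smul]
    simp only [add_mul, mul_sub, sub_mul, mul_add, one_mul, mul_one]
    abel
  rw [e, smul_smul, inv_mul_cancel₀ h2, one_smul]

/-- Totally isotropic slot-invariant families of operators are zero. -/
theorem fam_zero {n : ℕ} (R : Set (Module.End F (T F k n)))
    (hR : ∀ (j : Fin n) (α : (Module.End F (Fin k → F))ˣ), IsoW ω α → ∀ r ∈ R,
      sE j α.1 * r * sE j (α⁻¹).1 ∈ R)
    (h : ∀ r ∈ R, ∀ r' ∈ R, ∀ b b', fT ω n (r b) (r' b') = 0) {r : Module.End F (T F k n)} (hr : r ∈ R) :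
    r = 0 := by
  refine LinearMap.ext fun b => ?_
  by_contra hb
  rw [LinearMap.zero_apply] at hb
  set X : Submodule F (T F k n) := Submodule.span F {x | ∃ r ∈ R, ∃ b, x = r b} with hX
  have hX' : X = ⊤ := by
    refine irr hω n X ?_ (r b) (Submodule.subset_span ⟨r, hr, b, rfl⟩) hb
    intro j α hα v hv
    rw [hX] at hv ⊢
    induction hv using Submodule.span_induction with
    | mem x hx =>
      obtain ⟨r', hr', b', rfl⟩ := hx
      refine Submodule.subset_span ⟨_, hR j α hα r' hr', sE j α.1 b', ?_⟩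
      rw [Module.End.mul_apply, Module.End.mul_apply, ← Module.End.mul_apply (sE j (α⁻¹).1), ← sE_mul, ← Units.val_mul,
        inv_mul_cancel, Units.val_one, sE_one, Module.End.one_apply]
    | zero => rw [map_zero]; exact Submodule.zero_mem _
    | add x y _ _ hx hy => rw [map_add]; exact Submodule.add_mem _ hx hy
    | smul c x _ hx => rw [map_smul]; exact Submodule.smul_mem _ _ hx
  apply hb
  apply fT_ndl hω
  intro b'
  have hb' : b' ∈ X := by rw [hX']; trivial
  rw [hX] at hb'
  induction hb' using Submodule.span_induction with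
  | mem x hx =>
    obtain ⟨r', hr', b'', rfl⟩ := hx
    exact h r hr r' hr' _ _
  | zero => rw [map_zero]
  | add x y _ _ hx hy => rw [map_add, hx, hy, add_zero]
  | smul c x _ hx => rw [map_smul, hx, smul_zero]

omit hω in
theorem fT_ne {n : ℕ} (hω : Symp ω) (hk : 0 < k) : ∃ b b' : T F k n, fT ω n b b' ≠ 0 := by
  have : Nonempty (Fin k) := ⟨⟨0, hk⟩⟩
  have hne : ∃ b : T F k n, b ≠ 0 := ⟨fun _ => 1, fun h => one_ne_zero (congrFun h fun _ => ⟨0, hk⟩)⟩
  obtain ⟨b, hb⟩ := hne
  by_contra hcon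
  push Not at hcon
  exact hb (fT_ndl hω n b fun b' => hcon b b')

/-- conjugation of `cs` by slots -/
theorem conj_cs_self {n : ℕ} (i : Fin (n + 1)) {α : (Module.End F (Fin k → F))ˣ} (hα : IsoW ω α)
    (w : Fin k → F) (w' : Fin k → F) (r : Module.End F (T F k n)) :
    sE i α.1 * (ιT i w ∘ₗ r ∘ₗ κT ω i w') * sE i (α⁻¹).1 = ιT i (α.1 w) ∘ₗ r ∘ₗ κT ω i (α.1 w') := by
  refine (DT hω i).ext hω fun x b => ?_
  have h1 : κT ω i w' (ιT i ((α⁻¹).1 x) b) = ω w' ((α⁻¹).1 x) • b := (DT hω i).κι _ _ _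
  have h2 : κT ω i (α.1 w') (ιT i x b) = ω (α.1 w') x • b := (DT hω i).κι _ _ _
  have h3 : ω (α.1 w') x = ω w' ((α⁻¹).1 x) := by
    conv_lhs => rw [← apply_inv α x]
    rw [hα]
  rw [DT_ι, Module.End.mul_apply, Module.End.mul_apply, sE_ιT_self, LinearMap.comp_apply, LinearMap.comp_apply,
    sE_ιT_self, LinearMap.comp_apply, LinearMap.comp_apply, h1, h2, h3]

theorem conj_cs_ne {n : ℕ} (i : Fin (n + 1)) (j : Fin n) (α : (Module.End F (Fin k → F))ˣ)
    (w w' : Fin k → F) (r : Module.End F (T F k n)) :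
    sE (i.succAbove j) α.1 * (ιT i w ∘ₗ r ∘ₗ κT ω i w') * sE (i.succAbove j) (α⁻¹).1 =
      ιT i w ∘ₗ (sE j α.1 * r * sE j (α⁻¹).1) ∘ₗ κT ω i w' := by
  refine (DT hω i).ext hω fun x b => ?_
  have h1 : ∀ b, κT ω i w' (ιT i x b) = ω w' x • b := fun b => (DT hω i).κι _ _ _
  rw [DT_ι, Module.End.mul_apply, Module.End.mul_apply, sE_ιT_ne, LinearMap.comp_apply, LinearMap.comp_apply,
    sE_ιT_ne, LinearMap.comp_apply, LinearMap.comp_apply, h1, h1, Module.End.mul_apply, Module.End.mul_apply]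
  simp only [map_smul]

theorem csc_eq {n : ℕ} (i : Fin (n + 1)) (w w' : Fin k → F) (s : Module.End F (T F k (n + 1))) :
    sE i (rk ω w w) * s * sE i (rk ω w' w') =
      ιT i w ∘ₗ (κT ω i w ∘ₗ s ∘ₗ ιT i w') ∘ₗ κT ω i w' := by
  rw [C_eq hω, C_eq hω]
  rfl

/-- For `s` in an invariant subspace satisfying the constraint, `κ w s ι w = 0` (odd characteristic). -/
theorem diag_zero (h2 : (2 : F) ≠ 0) (hk : 4 ≤ k) {n : ℕ}
    {T' : Submodule F (Module.End F (T F k (n + 1)))} (hT : SlotInv ω T') (hC : Constr ω T') (i : Fin (n + 1))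
    (w : Fin k → F) {s : Module.End F (T F k (n + 1))} (hs : s ∈ T') :
    κT ω i w ∘ₗ s ∘ₗ ιT i w = 0 := by
  by_cases hw : w = 0
  · rw [hw]
    refine LinearMap.ext fun b => ?_
    simp
  refine fam_zero hω {r | ∀ w, ιT i w ∘ₗ r ∘ₗ κT ω i w ∈ T'} ?_ ?_ ?_
  · intro j α hα r hr w
    rw [← conj_cs_ne hω]
    exact hT _ _ hα _ (hr w)
  · intro r hr r' hr' b b'
    have hne : (Pi.single (⟨0, by omega⟩ : Fin k) (1 : F) : Fin k → F) ≠ 0 := by
      intro h0
      have := congrFun h0 ⟨0, by omega⟩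
      rw [Pi.single_eq_same] at this
      exact one_ne_zero this
    obtain ⟨z', hz⟩ := hω.exists_pair hne
    set z : Fin k → F := Pi.single (⟨0, by omega⟩ : Fin k) (1 : F)
    obtain ⟨x, y, hxy, h1, h3, h4, h5⟩ := exists_two_pairs hω hk hz
    obtain ⟨τ, hτ⟩ := hC _ (hr z) _ (hr' z')
    have hz' : ω z' z = -1 := by rw [hω.skew, hz]
    have key : ∀ x y b b', ω z x * ω z' y * fT ω n (r b) (r' b') - ω z' x * ω z y * fT ω n (r' b) (r b') =
        τ * (ω x y * fT ω n b b') := by
      intro x y b b'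
      have e := hτ (ιT i x b) (ιT i y b')
      have k1 : ∀ u v b, κT ω i u (ιT i v b) = ω u v • b := fun u v b => (DT hω i).κι _ _ _
      simp only [LinearMap.comp_apply, k1, map_smul, LinearMap.smul_apply, smul_eq_mul] at e
      have f1 : ∀ u v b b', fT ω (n + 1) (ιT i u b) (ιT i v b') = ω u v * fT ω n b b' := fun u v b b' =>
        (DT_forms hω i).ιι u v b b'
      rw [f1, f1, f1, hz, hz'] at e
      rw [← e]
      ring
    have hτ0 : τ = 0 := by
      obtain ⟨b₀, b₁, hb⟩ := fT_ne (n := n) hω (by omega)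
      have := key x y b₀ b₁
      rw [h1, h3, h4, h5, hxy] at this
      simp only [zero_mul, sub_zero, one_mul] at this
      exact (mul_eq_zero.1 this.symm).resolve_right hb
    have := key z' z b b'
    rw [hτ0, hω.alt, hz, hz', zero_mul, zero_mul, sub_zero, one_mul] at this
    have h6 : fT ω n (r b) (r' b') = -(-1 * fT ω n (r b) (r' b')) := by ring
    rw [h6, this, zero_mul, neg_zero]
  · intro w'
    by_cases hw' : w' = 0
    · rw [hw', map_zero, LinearMap.zero_comp]; exact T'.zero_mem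
    obtain ⟨α, hα, hαw⟩ := exists_iso_of_ne hω hw hw'
    have h := hT i α hα _ (inv_csc hω hT h2 i w hs)
    rw [csc_eq hω, conj_cs_self hω i hα, hαw] at h
    exact h

omit hω in
theorem fT_symm (hω : Symp ω) {n : ℕ} (x y : T F k n) : fT ω n x y = (-1) ^ n * fT ω n y x := by
  have h : fT ω n = ((-1 : F) ^ n) • (fT ω n).flip := by
    refine bilin_ext fun xs ys => ?_
    have e0 : ((-1 : F) ^ n • (fT ω n).flip) (tp xs) (tp ys) = (-1) ^ n * fT ω n (tp ys) (tp xs) := rfl
    rw [e0, fT_tp, fT_tp]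
    have : ∀ i ∈ Finset.univ, ω (xs i) (ys i) = -1 * ω (ys i) (xs i) := fun i _ => by
      rw [hω.skew]; ring
    rw [Finset.prod_congr rfl this, Finset.prod_mul_distrib, Finset.prod_const, Finset.card_univ,
      Fintype.card_fin]
  have := LinearMap.congr_fun (LinearMap.congr_fun h x) y
  exact this

omit hω in
/-- Swapping slots. -/
theorem swap_all {n : ℕ} (G : LinearMap.BilinForm F (T F k (n + 1)))
    (hG : ∀ (i : Fin (n + 1)) w b b', G (ιT i w b) (ιT i w b') = 0) (xs ys : Fin (n + 1) → (Fin k → F)) :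
    G (tp xs) (tp ys) = (-1) ^ (n + 1) * G (tp ys) (tp xs) := by
  have hG' : ∀ (i : Fin (n + 1)) w w' b b', G (ιT i w b) (ιT i w' b') = -G (ιT i w' b) (ιT i w b') := by
    intro i w w' b b'
    have h := hG i (w + w') b b'
    simp only [map_add, LinearMap.add_apply, hG, zero_add, add_zero] at h
    linear_combination h
  have hstep : ∀ (i : Fin (n + 1)) (xs ys : Fin (n + 1) → (Fin k → F)),
      G (tp xs) (tp ys) = -G (tp (Function.update xs i (ys i))) (tp (Function.update ys i (xs i))) := by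
    intro i xs ys
    have e : ∀ (zs : Fin (n + 1) → (Fin k → F)) (w : Fin k → F),
        tp (Function.update zs i w) = ιT i w (tp (i.removeNth zs)) := by
      intro zs w
      rw [ιT_tp]
      congr 1
      rw [Fin.insertNth_removeNth]
    have e' : ∀ (zs : Fin (n + 1) → (Fin k → F)), tp zs = ιT i (zs i) (tp (i.removeNth zs)) := by
      intro zs
      rw [← e, Function.update_eq_self]
    rw [e, e, ← hG', ← e', ← e']
  have key : ∀ S : Finset (Fin (n + 1)), G (tp xs) (tp ys) =
      (-1) ^ S.card * G (tp (S.piecewise ys xs)) (tp (S.piecewise xs ys)) := by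
    intro S
    induction S using Finset.induction_on with
    | empty => simp
    | insert a S ha ih =>
      rw [ih, Finset.card_insert_of_notMem ha, Finset.piecewise_insert, Finset.piecewise_insert,
        hstep a (S.piecewise ys xs) (S.piecewise xs ys), Finset.piecewise_eq_of_notMem _ _ _ ha,
        Finset.piecewise_eq_of_notMem _ _ _ ha]
      ring
  have := key Finset.univ
  rw [Finset.card_univ, Fintype.card_fin] at this
  simpa using this

theorem triv_odd (h2 : (2 : F) ≠ 0) (hk : 4 ≤ k) {n : ℕ}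
    {T' : Submodule F (Module.End F (T F k (n + 1)))} (h1 : (1 : Module.End F (T F k (n + 1))) ∈ T')
    (hT : SlotInv ω T') (hC : Constr ω T') {s : Module.End F (T F k (n + 1))} (hs : s ∈ T') :
    ∃ τ : F, s = τ • 1 := by
  have hself : ∀ x y, fT ω (n + 1) (s x) y = fT ω (n + 1) x (s y) := by
    have hG := swap_all ((fT ω (n + 1)) ∘ₗ s) (by
      intro i w b b'
      rw [LinearMap.comp_apply, fT_adj' hω]
      have := LinearMap.congr_fun (diag_zero hω h2 hk hT hC i w hs) b
      rw [LinearMap.comp_apply, LinearMap.comp_apply, LinearMap.zero_apply] at this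
      rw [this, map_zero, LinearMap.zero_apply, neg_zero])
    have h : (fT ω (n + 1)) ∘ₗ s = (fT ω (n + 1)).compl₂ s := by
      refine bilin_ext fun xs ys => ?_
      rw [hG, LinearMap.comp_apply, LinearMap.compl₂_apply, fT_symm hω, ← mul_assoc, ← mul_pow]
      simp
    intro x y
    have := LinearMap.congr_fun (LinearMap.congr_fun h x) y
    exact this
  obtain ⟨τ, hτ⟩ := hC s hs 1 h1
  refine ⟨2⁻¹ * τ, ?_⟩
  refine LinearMap.ext fun b => ?_
  rw [← sub_eq_zero]
  apply fT_ndl hω
  intro b'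
  have h3 := hτ b b'
  rw [Module.End.one_apply, Module.End.one_apply, ← hself] at h3
  rw [map_sub, LinearMap.sub_apply, LinearMap.smul_apply, Module.End.one_apply, map_smul, LinearMap.smul_apply,
    smul_eq_mul, mul_assoc, ← h3]
  field_simp
  ring

/-- For `s` in an invariant subspace satisfying the constraint, `κ w s ι w' = 0` for `w ⊥ w'` (any characteristic,
`k ≥ 6`). -/
theorem off_zero (hk : 6 ≤ k) {n : ℕ}
    {T' : Submodule F (Module.End F (T F k (n + 1)))} (hT : SlotInv ω T') (hC : Constr ω T') (i : Fin (n + 1))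
    {w w' : Fin k → F} (hww' : ω w w' = 0) (hw : w ≠ 0) (hw' : ∀ c : F, w' ≠ c • w)
    {s : Module.End F (T F k (n + 1))} (hs : s ∈ T') :
    κT ω i w ∘ₗ s ∘ₗ ιT i w' = 0 := by
  let P : Module.End F (T F k n) → Module.End F (T F k n) → Prop := fun r₁ r₂ =>
    ∀ y y', ω y y' = 0 → y ≠ 0 → (∀ c : F, y' ≠ c • y) →
      ιT i y ∘ₗ r₁ ∘ₗ κT ω i y' + ιT i y' ∘ₗ r₂ ∘ₗ κT ω i y ∈ T'
  have hPsymm : ∀ r₁ r₂, P r₁ r₂ → P r₂ r₁ := by
    intro r₁ r₂ h y y' h1 h2 h3
    have hy' : y' ≠ 0 := by simpa using h3 0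
    have := h y' y (by rw [hω.skew, h1, neg_zero]) hy' (by
      intro c hc
      have hc0 : c ≠ 0 := by
        rintro rfl
        rw [zero_smul] at hc
        exact h2 hc
      exact h3 c⁻¹ (by rw [hc, inv_smul_smul₀ hc0]))
    convert this using 1
    exact add_comm _ _
  refine fam_zero hω {r | ∃ r₂, P r r₂} ?_ ?_ ?_
  · rintro j α hα r ⟨r₂, h⟩
    refine ⟨sE j α.1 * r₂ * sE j (α⁻¹).1, fun y y' h1 h2 h3 => ?_⟩
    have h4 := hT (i.succAbove j) α hα _ (h y y' h1 h2 h3)
    rw [mul_add, add_mul, conj_cs_ne hω, conj_cs_ne hω] at h4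
    exact h4
  · rintro r₂ ⟨r₁, hr⟩ r₁' ⟨r₂', hr'⟩ b b'
    have hr := hPsymm _ _ hr
    -- configuration: `(z', y)` hyperbolic, `(z, p)`, `(y', q)` hyperbolic
    obtain ⟨z', y, z, p, y', q, h1, h2, h3, h4, h5, h6, h7, h8, h9, h10, h11, h12, h13, h14, h15⟩ :=
      exists_three_pairs hω hk
    have a1 : ω z z' = 0 := by rw [hω.skew, h4, neg_zero]
    have a2 : ω y' z' = 0 := by rw [hω.skew, h6, neg_zero]
    have a3 : ω y y' = 0 := h10
    have a4 : ω z y = 0 := by rw [hω.skew, h8, neg_zero]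
    have a5 : ω y' z = 0 := by rw [hω.skew, h12, neg_zero]
    have a6 : ω y' p = 0 := by rw [hω.skew, h14, neg_zero]
    have a7 : ω y z' = -1 := by rw [hω.skew, h1]
    have hz0 : z ≠ 0 := by
      rintro rfl
      simp at h2
    have hy0 : y ≠ 0 := by
      rintro rfl
      simp at h1
    have i1 : ∀ c : F, z' ≠ c • z := by
      intro c hc
      rw [hc, map_smul, LinearMap.smul_apply, a4, smul_zero] at h1
      exact zero_ne_one h1
    have i2 : ∀ c : F, y' ≠ c • y := by
      intro c hc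
      rw [hc, map_smul, LinearMap.smul_apply, h11, smul_zero] at h3
      exact zero_ne_one h3
    obtain ⟨τ, hτ⟩ := hC _ (hr z z' a1 hz0 i1) _ (hr' y y' a3 hy0 i2)
    have key : ∀ x v b b', ω z x * ω y' v * fT ω n (r₂ b) (r₁' b') - ω y' x * ω z v * fT ω n (r₁' b) (r₂ b') =
        τ * (ω x v * fT ω n b b') := by
      intro x v b b'
      have e := hτ (ιT i x b) (ιT i v b')
      have k1 : ∀ u v b, κT ω i u (ιT i v b) = ω u v • b := fun u v b => (DT hω i).κι _ _ _
      have f1 : ∀ u v b b', fT ω (n + 1) (ιT i u b) (ιT i v b') = ω u v * fT ω n b b' := fun u v b b' =>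
        (DT_forms hω i).ιι u v b b'
      have a8 : ω y z = 0 := h8
      have a9 : ω z y' = 0 := h12
      have a10 : ω z' y' = 0 := h6
      simp only [LinearMap.add_apply, LinearMap.comp_apply, k1, map_smul, LinearMap.smul_apply, smul_eq_mul, map_add,
        f1, h1, a4, a7, a8, a9, a5, a10, a2, zero_mul, mul_zero, add_zero, zero_add] at e
      rw [← e]
      ring
    have hτ0 : τ = 0 := by
      obtain ⟨b₀, b₁, hb⟩ := fT_ne (n := n) hω (by omega)
      have := key z' y b₀ b₁
      rw [a1, a2, a4, h1] at this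
      simp only [zero_mul, sub_zero, one_mul, mul_zero] at this
      exact (mul_eq_zero.1 this.symm).resolve_right hb
    have := key p q b b'
    rw [hτ0, h2, h3, a6] at this
    simpa using this
  · refine ⟨κT ω i w' ∘ₗ s ∘ₗ ιT i w, fun y y' h1 h2 h3 => ?_⟩
    obtain ⟨α, hα, hαw⟩ := exists_iso_of_ne hω hw h2
    obtain ⟨β, hβ, hβy, hβw⟩ := exists_iso hω (a := y) (x := α.1 w') (y := y')
      (by rw [← hαw, hα, hww']) h1 (by
        intro c hc
        apply hw' c
        have e1 : α.1 (w' - c • w) = 0 := by rw [map_sub, map_smul, hc, hαw, sub_self]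
        have e2 := inv_apply α (w' - c • w)
        rw [e1, map_zero] at e2
        exact sub_eq_zero.1 e2.symm) h3
    have h4 := hT i _ (hβ.mul hα) _ (inv_pair hω hT i hww' hs)
    rw [csc_eq hω, csc_eq hω, mul_add, add_mul, conj_cs_self hω i (hβ.mul hα), conj_cs_self hω i (hβ.mul hα),
      mul_app, mul_app, hαw, hβy, hβw] at h4
    exact h4

theorem triv_even (hk : 6 ≤ k) {n : ℕ}
    {T' : Submodule F (Module.End F (T F k (n + 1)))}
    (hT : SlotInv ω T') (hC : Constr ω T') {s : Module.End F (T F k (n + 1))} (hs : s ∈ T') :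
    ∃ τ : F, s = τ • 1 := by
  apply schur hω (by omega)
  intro i u
  rw [C_eq hω]
  apply comm_of_stab _ hω
  intro a b
  by_cases ha : a = 0
  · exact ⟨0, by rw [ha]; simp⟩
  apply (DT hω i).exists_of_perp hω ha
  have key : ∀ m, ω a m = 0 → (∀ c : F, m ≠ c • a) → (DT hω i).κ m (s (ιT i a b)) = 0 := by
    intro m hm hma
    have hm0 : m ≠ 0 := by simpa using hma 0
    have h := off_zero hω hk hT hC i (w := m) (w' := a) (by rw [hω.skew, hm, neg_zero]) hm0 (by
      intro c hc
      have hc0 : c ≠ 0 := by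
        rintro rfl
        rw [zero_smul] at hc
        exact ha hc
      exact hma c⁻¹ (by rw [hc, inv_smul_smul₀ hc0])) hs
    exact LinearMap.congr_fun h b
  intro n' hn'
  by_cases hna : ∃ c : F, n' = c • a
  · obtain ⟨c, rfl⟩ := hna
    obtain ⟨m, hm, hma⟩ := exists_perp_avoid hω ![a] a (by omega)
    have hm0 := hm 0
    simp only [Matrix.cons_val_zero, Matrix.cons_val_fin_one] at hm0
    have e1 := key m hm0 hma
    have e2 := key (m + c • a) (by rw [map_add, hm0, map_smul, hω.alt, smul_zero, add_zero]) (by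
      intro d hd
      apply hma (d - c)
      rw [sub_smul, ← hd]; abel)
    rw [map_add, LinearMap.add_apply, e1, zero_add] at e2
    exact e2
  · push Not at hna
    exact key n' hn' hna

end

end Cfsg.Agent.H889.C7
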