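import Mathlib
import Cfsg.Agent.H889.C7.Triv2

/-!
Partial traces, rank lemmas.
-/

set_option autoImplicit false
set_option linter.unusedSectionVars false
set_option linter.unusedVariables false
set_option linter.unusedSimpArgs false

namespace Cfsg.Agent.H889.C7

open Module

variable {F : Type*} [Field F] {k : ℕ} {ω : LinearMap.BilinForm F (Fin k → F)} {B V : Type*}
  [AddCommGroup B] [Module F B] [AddCommGroup V] [Module F V]

namespace TD

variable (D : TD ω B V)

/-- The elementary operator `ι y β κ x`. -/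
def el (y : Fin k → F) (β : Module.End F B) (x : Fin k → F) : Module.End F V := D.ι y ∘ₗ β ∘ₗ D.κ x

theorem el_apply (y : Fin k → F) (β : Module.End F B) (x : Fin k → F) (v : V) :
    D.el y β x v = D.ι y (β (D.κ x v)) := rfl

theorem cs_eq_el (u : Fin k → F) (s : Module.End F B) : D.cs u s = D.el u s u := rfl

theorem el_eq_map (hω : Symp ω) (y : Fin k → F) (β : Module.End F B) (x : Fin k → F) :
    D.el y β x = D.map hω (rk ω y x) β := by
  refine D.ext hω fun w b => ?_
  rw [el_apply, D.κι, D.map_ι, rk_apply, map_smul, map_smul, map_smul, LinearMap.smul_apply]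

/-- Additive maps on `End V` are determined by the elementary operators. -/
theorem end_ext (hω : Symp ω) {X : Type*} [AddCommMonoid X] {f g : Module.End F V →+ X}
    (h : ∀ y β x, f (D.el y β x) = g (D.el y β x)) : f = g := by
  ext z
  have hz : z = ∑ p, ∑ r, D.el (Pi.single p 1) (D.κ (dualv hω p) ∘ₗ z ∘ₗ D.ι (Pi.single r 1)) (dualv hω r) := by
    refine LinearMap.ext fun v => ?_
    conv_lhs => rw [D.expand hω (z v)]
    rw [LinearMap.sum_apply]
    refine Finset.sum_congr rfl fun p _ => ?_
    rw [LinearMap.sum_apply]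
    conv_lhs => rw [D.expand hω v]
    rw [map_sum, map_sum, map_sum]
    rfl
  rw [hz]
  simp only [map_sum, h]

/-- The partial trace. -/
noncomputable def ptr (hω : Symp ω) : Module.End F V →ₗ[F] Module.End F (Fin k → F) where
  toFun z :=
    { toFun := fun w => fun p => LinearMap.trace F B (D.κ (dualv hω p) ∘ₗ z ∘ₗ D.ι w)
      map_add' := fun w w' => by
        funext p
        rw [map_add, LinearMap.comp_add, LinearMap.comp_add, map_add]; rfl
      map_smul' := fun c w => by
        funext p
        rw [map_smul, LinearMap.comp_smul, LinearMap.comp_smul, map_smul]; rfl }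
  map_add' z z' := by
    refine LinearMap.ext fun w => ?_
    funext p
    change LinearMap.trace F B (D.κ (dualv hω p) ∘ₗ (z + z') ∘ₗ D.ι w) = _
    rw [LinearMap.add_comp, LinearMap.comp_add, map_add]; rfl
  map_smul' c z := by
    refine LinearMap.ext fun w => ?_
    funext p
    change LinearMap.trace F B (D.κ (dualv hω p) ∘ₗ (c • z) ∘ₗ D.ι w) = _
    rw [LinearMap.smul_comp, LinearMap.comp_smul, map_smul]; rfl

theorem eq_sum_dualv (hω : Symp ω) (u : Fin k → F) : u = ∑ p, ω u (Pi.single p 1) • dualv hω p := by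
  rw [← sub_eq_zero]
  apply hω.nd
  intro w
  rw [map_sub, LinearMap.sub_apply, map_sum, LinearMap.sum_apply, sub_eq_zero]
  simp only [map_smul, LinearMap.smul_apply, ω_dualv, smul_eq_mul]
  conv_lhs => rw [← sum_single w]
  rw [map_sum]
  refine Finset.sum_congr rfl fun p _ => ?_
  rw [map_smul, smul_eq_mul, mul_comm]

theorem ω_ptr (hω : Symp ω) (z : Module.End F V) (u w : Fin k → F) :
    ω u (D.ptr hω z w) = LinearMap.trace F B (D.κ u ∘ₗ z ∘ₗ D.ι w) := by
  have h1 : ∀ p, ω (dualv hω p) (D.ptr hω z w) = LinearMap.trace F B (D.κ (dualv hω p) ∘ₗ z ∘ₗ D.ι w) := by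
    intro p
    rw [ω_dualv]; rfl
  let L : (Fin k → F) →ₗ[F] F :=
    { toFun := fun u => LinearMap.trace F B (D.κ u ∘ₗ z ∘ₗ D.ι w)
      map_add' := fun u u' => by rw [map_add, LinearMap.add_comp, map_add]
      map_smul' := fun c u => by rw [map_smul, LinearMap.smul_comp, map_smul]; rfl }
  change _ = L u
  conv_lhs => rw [eq_sum_dualv hω u]
  rw [map_sum, LinearMap.sum_apply]
  conv_rhs => rw [eq_sum_dualv hω u]
  rw [map_sum]
  refine Finset.sum_congr rfl fun p _ => ?_
  rw [map_smul, LinearMap.smul_apply, h1, map_smul]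
  rfl

theorem ptr_el (hω : Symp ω) (y : Fin k → F) (β : Module.End F B) (x : Fin k → F) :
    D.ptr hω (D.el y β x) = LinearMap.trace F B β • rk ω y x := by
  refine LinearMap.ext fun w => ?_
  rw [← sub_eq_zero]
  have hsk : ∀ v, (∀ u, ω u v = 0) → v = 0 := fun v hv => hω.nd v fun u => by
    rw [hω.skew, hv, neg_zero]
  apply hsk
  intro u
  rw [map_sub, D.ω_ptr, LinearMap.smul_apply, rk_apply, map_smul, map_smul]
  have : D.κ u ∘ₗ D.el y β x ∘ₗ D.ι w = (ω u y * ω x w) • β := by
    refine LinearMap.ext fun b => ?_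
    rw [LinearMap.comp_apply, LinearMap.comp_apply, el_apply, D.κι, D.κι, map_smul, smul_smul,
      LinearMap.smul_apply]
  rw [this, map_smul]
  simp only [smul_eq_mul]
  ring

/-- The projection onto `End W ⊗ 1`. -/
noncomputable def TA (hω : Symp ω) (z : Module.End F V) : Module.End F V := D.map hω (D.ptr hω z) 1

theorem map_add_left (hω : Symp ω) (x x' : Module.End F (Fin k → F)) (β : Module.End F B) :
    D.map hω (x + x') β = D.map hω x β + D.map hω x' β := by
  refine D.ext hω fun w b => ?_
  rw [LinearMap.add_apply, map_ι, map_ι, map_ι, LinearMap.add_apply, map_add, LinearMap.add_apply]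

theorem map_smul_left (hω : Symp ω) (c : F) (x : Module.End F (Fin k → F)) (β : Module.End F B) :
    D.map hω (c • x) β = c • D.map hω x β := by
  refine D.ext hω fun w b => ?_
  rw [LinearMap.smul_apply, map_ι, map_ι, LinearMap.smul_apply, map_smul, LinearMap.smul_apply]

theorem map_add_right (hω : Symp ω) (x : Module.End F (Fin k → F)) (β β' : Module.End F B) :
    D.map hω x (β + β') = D.map hω x β + D.map hω x β' := by
  refine D.ext hω fun w b => ?_
  rw [LinearMap.add_apply, map_ι, map_ι, map_ι, LinearMap.add_apply, map_add]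

theorem map_smul_right (hω : Symp ω) (c : F) (x : Module.End F (Fin k → F)) (β : Module.End F B) :
    D.map hω x (c • β) = c • D.map hω x β := by
  refine D.ext hω fun w b => ?_
  rw [LinearMap.smul_apply, map_ι, map_ι, LinearMap.smul_apply, map_smul]

theorem TA_add (hω : Symp ω) (z z' : Module.End F V) : D.TA hω (z + z') = D.TA hω z + D.TA hω z' := by
  rw [TA, map_add, map_add_left]; rfl

theorem TA_el (hω : Symp ω) (y : Fin k → F) (β : Module.End F B) (x : Fin k → F) :
    D.TA hω (D.el y β x) = LinearMap.trace F B β • D.el y 1 x := by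
  rw [TA, ptr_el, map_smul_left, el_eq_map]

/-- A similitude pair. -/
theorem el_conj (hω : Symp ω) {α : (Module.End F (Fin k → F))ˣ} {β₀ : (Module.End F B)ˣ} {μ : F}
    (hμ : μ ≠ 0) (hα : ∀ x y, ω (α.1 x) (α.1 y) = μ * ω x y) (y : Fin k → F) (β : Module.End F B)
    (x : Fin k → F) :
    (D.mapU hω α β₀).1 * D.el y β x * ((D.mapU hω α β₀)⁻¹).1 =
      μ⁻¹ • D.el (α.1 y) (β₀.1 * β * (β₀⁻¹).1) (α.1 x) := by
  refine D.ext hω fun w b => ?_
  have h1 : ω x ((α⁻¹).1 w) = μ⁻¹ * ω (α.1 x) w := by
    conv_rhs => rw [← apply_inv α w]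
    rw [hα, inv_mul_cancel_left₀ hμ]
  rw [D.mapU_inv hω, Module.End.mul_apply, Module.End.mul_apply, D.mapU_ι, el_apply, D.κι, D.mapU_ι,
    LinearMap.smul_apply, el_apply, D.κι, h1, map_smul, map_smul, map_smul, map_smul, map_smul, smul_smul,
    Module.End.mul_apply, Module.End.mul_apply]

theorem TA_conj (hω : Symp ω) {α : (Module.End F (Fin k → F))ˣ} {β₀ : (Module.End F B)ˣ} {μ : F}
    (hμ : μ ≠ 0) (hα : ∀ x y, ω (α.1 x) (α.1 y) = μ * ω x y) (z : Module.End F V) :
    D.TA hω ((D.mapU hω α β₀).1 * z * ((D.mapU hω α β₀)⁻¹).1) =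
      (D.mapU hω α β₀).1 * D.TA hω z * ((D.mapU hω α β₀)⁻¹).1 := by
  set h := D.mapU hω α β₀ with hh
  let f : Module.End F V →+ Module.End F V :=
    { toFun := fun z => D.TA hω (h.1 * z * (h⁻¹).1)
      map_zero' := by
        have := D.TA_add hω 0 0
        rw [add_zero] at this
        rw [mul_zero, zero_mul]
        exact left_eq_add.1 this
      map_add' := fun z z' => by rw [mul_add, add_mul, TA_add] }
  let g : Module.End F V →+ Module.End F V :=
    { toFun := fun z => h.1 * D.TA hω z * (h⁻¹).1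
      map_zero' := by
        have := D.TA_add hω 0 0
        rw [add_zero] at this
        rw [left_eq_add.1 this, mul_zero, zero_mul]
      map_add' := fun z z' => by rw [TA_add, mul_add, add_mul] }
  have hfg : f = g := by
    apply D.end_ext hω
    intro y β x
    change D.TA hω (h.1 * D.el y β x * (h⁻¹).1) = h.1 * D.TA hω (D.el y β x) * (h⁻¹).1
    have htr : LinearMap.trace F B (β₀.1 * β * (β₀⁻¹).1) = LinearMap.trace F B β := by
      rw [LinearMap.trace_mul_comm, ← mul_assoc, ← Units.val_mul, inv_mul_cancel, Units.val_one, one_mul]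
    rw [hh, el_conj D hω hμ hα, TA, map_smul, ptr_el, TA_el, htr, mul_smul_comm, smul_mul_assoc,
      el_conj D hω hμ hα, mul_one, ← Units.val_mul, mul_inv_cancel, Units.val_one, map_smul_left,
      map_smul_left, el_eq_map]
    exact smul_comm _ _ _
  exact DFunLike.congr_fun hfg z

/-- `TA` in terms of the trace of `V`. -/
theorem TA_eq_zero [FiniteDimensional F V] [FiniteDimensional F B] (hω : Symp ω) {z : Module.End F V}
    (h : ∀ v u, LinearMap.trace F V (z * D.el v 1 u) = 0) : D.TA hω z = 0 := by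
  have h1 : D.ptr hω z = 0 := by
    refine LinearMap.ext fun w => ?_
    have hsk : ∀ v, (∀ u, ω u v = 0) → v = 0 := fun v hv => hω.nd v fun u => by
      rw [hω.skew, hv, neg_zero]
    apply hsk
    intro u
    rw [D.ω_ptr, LinearMap.trace_comp_comm']
    exact h w u
  rw [TA, h1]
  refine D.ext hω fun w b => ?_
  rw [map_ι]; simp

end TD

end Cfsg.Agent.H889.C7
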