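import Mathlib
import Cfsg.Agent.H889.C7.Ptr

/-!
Rank lemmas for decomposable operators; elements of `M` conjugating roots of a slot to roots of the same slot.
-/

set_option autoImplicit false
set_option linter.unusedSectionVars false
set_option linter.unusedVariables false
set_option linter.unusedSimpArgs false

namespace Cfsg.Agent.H889.C7

open Module

variable {F : Type*} [Field F] {k : ℕ} {ω : LinearMap.BilinForm F (Fin k → F)} {B V : Type*}
  [AddCommGroup B] [Module F B] [AddCommGroup V] [Module F V]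

theorem scalar_of_forall {α : Module.End F (Fin k → F)} (h : ∀ w, ∃ c : F, α w = c • w) :
    ∃ c : F, α = c • 1 := by
  by_cases hk : k = 0
  · subst hk
    exact ⟨0, LinearMap.ext fun w => Subsingleton.elim _ _⟩
  choose c hc using h
  let e : Fin k → (Fin k → F) := fun p => Pi.single p 1
  have he : ∀ p, e p p = 1 := fun p => Pi.single_eq_same _ _
  have hne : ∀ p q, q ≠ p → e p q = 0 := fun p q h => Pi.single_eq_of_ne h _
  have hcc : ∀ p q, c (e p) = c (e q) := by
    intro p q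
    by_cases hpq : p = q
    · rw [hpq]
    have h1 := hc (e p + e q)
    rw [map_add, hc, hc] at h1
    have h2 := congrFun h1 p
    have h3 := congrFun h1 q
    simp only [Pi.add_apply, Pi.smul_apply, smul_eq_mul, he, hne p q (Ne.symm hpq), hne q p hpq, mul_one,
      mul_zero, add_zero, zero_add] at h2 h3
    rw [h2, h3]
  refine ⟨c (e ⟨0, by omega⟩), LinearMap.ext fun w => ?_⟩
  rw [LinearMap.smul_apply, Module.End.one_apply]
  conv_lhs => rw [← TD.sum_single w]
  rw [map_sum]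
  conv_rhs => rw [← TD.sum_single w]
  rw [Finset.smul_sum]
  refine Finset.sum_congr rfl fun p _ => ?_
  rw [map_smul, hc (Pi.single p 1)]
  have := hcc p ⟨0, by omega⟩
  change w p • c (e p) • e p = _
  rw [this, smul_comm]

/-- Root-like operators. -/
structure RL (B : Type*) [AddCommGroup B] [Module F B] (fV : LinearMap.BilinForm F V)
    (N : Module.End F V) : Prop where
  sq : N * N = 0
  rank : finrank F (LinearMap.range N) = finrank F B
  skew : ∀ v w, fV (N v) w = -fV v (N w)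

section

variable {D : TD ω B V} {fB : LinearMap.BilinForm F B} {fV : LinearMap.BilinForm F V}

theorem RL.conj {N : Module.End F V} (h : RL B fV N) {g : (Module.End F V)ˣ}
    (hg : ∀ v w, fV (g.1 v) (g.1 w) = fV v w) : RL B fV (g.1 * N * (g⁻¹).1) := by
  refine ⟨?_, ?_, ?_⟩
  · have e : (g⁻¹).1 * g.1 = 1 := by rw [← Units.val_mul, inv_mul_cancel, Units.val_one]
    calc g.1 * N * (g⁻¹).1 * (g.1 * N * (g⁻¹).1) = g.1 * N * ((g⁻¹).1 * g.1) * N * (g⁻¹).1 := by
          simp only [mul_assoc]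
      _ = 0 := by rw [e, mul_one, mul_assoc g.1, h.sq, mul_zero, zero_mul]
  · rw [← h.rank]
    have hg1 : Function.Bijective g.1 := ⟨fun x y hxy => by rw [← inv_apply g x, hxy, inv_apply],
      fun x => ⟨(g⁻¹).1 x, apply_inv g x⟩⟩
    have hg2 : Function.Surjective (g⁻¹).1 := fun x => ⟨g.1 x, inv_apply g x⟩
    have e1 : LinearMap.range (g.1 * N * (g⁻¹).1) = (LinearMap.range N).map g.1 := by
      rw [Module.End.mul_eq_comp, Module.End.mul_eq_comp, LinearMap.range_comp_of_range_eq_top _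
        (LinearMap.range_eq_top.2 hg2), LinearMap.range_comp]
    rw [e1]
    exact (LinearEquiv.finrank_eq (Submodule.equivMapOfInjective g.1 hg1.1 _)).symm
  · intro v w
    have e1 : fV ((g.1 * N * (g⁻¹).1) v) w = fV (N ((g⁻¹).1 v)) ((g⁻¹).1 w) := by
      rw [Module.End.mul_apply, Module.End.mul_apply]
      conv_lhs => rw [← apply_inv g w]
      rw [hg]
    have e2 : fV v ((g.1 * N * (g⁻¹).1) w) = fV ((g⁻¹).1 v) (N ((g⁻¹).1 w)) := by
      rw [Module.End.mul_apply, Module.End.mul_apply]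
      conv_lhs => rw [← apply_inv g v]
      rw [hg]
    rw [e1, e2, h.skew]

theorem RL.smul {N : Module.End F V} (h : RL B fV N) {c : F} (hc : c ≠ 0) : RL B fV (c • N) := by
  refine ⟨?_, ?_, ?_⟩
  · rw [smul_mul_assoc, mul_smul_comm, h.sq, smul_zero, smul_zero]
  · rw [← h.rank, LinearMap.range_smul _ _ hc]
  · intro v w
    rw [LinearMap.smul_apply, LinearMap.smul_apply, map_smul, LinearMap.smul_apply, map_smul, h.skew, smul_neg]

theorem rl_cs (hω : Symp ω) (hf : D.Forms fB fV) {a : Fin k → F} (ha : a ≠ 0) : RL B fV (D.cs a 1) := by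
  obtain ⟨a', haa'⟩ := hω.exists_pair ha
  refine ⟨?_, ?_, ?_⟩
  · rw [cs_mul_cs, hω.alt, zero_smul]
  · have hinj : Function.Injective (D.ι a) := by
      rw [← LinearMap.ker_eq_bot, LinearMap.ker_eq_bot']
      intro b hb
      exact D.ι_inj hω ha hb
    have hsurj : Function.Surjective (D.κ a) := fun b => ⟨D.ι a' b, by rw [D.κι, haa', one_smul]⟩
    have e : LinearMap.range (D.cs a 1) = LinearMap.range (D.ι a) := by
      have : D.cs a 1 = (D.ι a) ∘ₗ (D.κ a) := rfl
      rw [this]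
      exact LinearMap.range_comp_of_range_eq_top _ (LinearMap.range_eq_top.2 hsurj)
    rw [e, LinearMap.finrank_range_of_inj hinj]
  · intro v w
    rw [TD.cs_apply, TD.cs_apply, Module.End.one_apply, Module.End.one_apply, hf.adj, hf.adj', neg_neg]

/-- The image is determined by one fibre. -/
theorem range_fibre [FiniteDimensional F V] {N : Module.End F V} {w : Fin k → F}
    (hrank : finrank F (LinearMap.range N) = finrank F B) (hinj : ∀ b, N (D.ι w b) = 0 → b = 0) (v : V) :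
    ∃ b, N v = N (D.ι w b) := by
  have hinj' : Function.Injective (N ∘ₗ D.ι w) := by
    rw [← LinearMap.ker_eq_bot, LinearMap.ker_eq_bot']
    exact hinj
  have h1 : LinearMap.range (N ∘ₗ D.ι w) = LinearMap.range N := by
    apply Submodule.eq_of_le_of_finrank_eq
    · rintro x ⟨b, rfl⟩
      exact ⟨_, rfl⟩
    · rw [LinearMap.finrank_range_of_inj hinj', hrank]
  have h2 : N v ∈ LinearMap.range (N ∘ₗ D.ι w) := by rw [h1]; exact ⟨v, rfl⟩
  obtain ⟨b, hb⟩ := h2
  exact ⟨b, hb.symm⟩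

/-- **R.** -/
theorem dec_scalar [Nontrivial B] [FiniteDimensional F V] (hω : Symp ω)
    (hk : (2 : F) ≠ 0 ∨ 4 ≤ k) (α : (Module.End F (Fin k → F))ˣ) (β : (Module.End F B)ˣ)
    (hsq : (D.map hω α.1 β.1 - 1) * (D.map hω α.1 β.1 - 1) = 0)
    (hrank : finrank F (LinearMap.range (D.map hω α.1 β.1 - 1)) = finrank F B) :
    (∃ c : F, α.1 = c • 1) ∨ (∃ c : F, β.1 = c • 1) := by
  by_cases hα : ∀ w, ∃ c : F, α.1 w = c • w
  · exact Or.inl (scalar_of_forall hα)
  right
  push Not at hα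
  obtain ⟨w, hw⟩ := hα
  have hw0 : w ≠ 0 := by
    rintro rfl
    exact hw 0 (by rw [map_zero, zero_smul])
  have hN : ∀ z b, (D.map hω α.1 β.1 - 1) (D.ι z b) = D.ι (α.1 z) (β.1 b) - D.ι z b := by
    intro z b
    rw [LinearMap.sub_apply, D.map_ι, Module.End.one_apply]
  rcases hk with h2 | hk
  · obtain ⟨u, hu1, hu2⟩ := hω.exists_sep hw trivial
    have key : ∀ b, ω u (α.1 (α.1 w)) • β.1 (β.1 b) = (2 : F) • β.1 b := by
      intro b
      have h1 := congrArg (D.κ u) (LinearMap.congr_fun hsq (D.ι w b))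
      rw [Module.End.mul_apply, hN, map_sub, hN, hN, LinearMap.zero_apply, map_zero, map_sub, map_sub, map_sub,
        D.κι, D.κι, D.κι, hu1, hu2, one_smul, zero_smul, sub_zero] at h1
      rw [two_smul]
      exact sub_eq_iff_eq_add.1 (sub_eq_zero.1 h1)
    have key' : ∀ b, ω u (α.1 (α.1 w)) • β.1 b = (2 : F) • b := by
      intro b
      have h1 := key ((β⁻¹).1 b)
      rwa [apply_inv] at h1
    obtain ⟨b₀, hb₀⟩ := exists_ne (0 : B)
    have hne : ω u (α.1 (α.1 w)) ≠ 0 := by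
      intro h0
      have := key' b₀
      rw [h0, zero_smul] at this
      exact hb₀ ((smul_eq_zero.1 this.symm).resolve_left h2)
    refine ⟨(ω u (α.1 (α.1 w)))⁻¹ * 2, LinearMap.ext fun b => ?_⟩
    rw [LinearMap.smul_apply, Module.End.one_apply, mul_smul, ← key', inv_smul_smul₀ hne]
  · obtain ⟨u', hu', hu0⟩ := exists_perp_avoid hω ![w, α.1 w] 0 (by omega)
    have hu0' : u' ≠ 0 := by simpa using hu0 0
    have h0 := hu' 0
    have h1 := hu' 1
    simp only [Matrix.cons_val_zero, Matrix.cons_val_one, Matrix.cons_val_fin_one] at h0 h1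
    rw [hω.skew, neg_eq_zero] at h0 h1
    obtain ⟨z, hz⟩ := hω.exists_pair hu0'
    have hinj : ∀ b, (D.map hω α.1 β.1 - 1) (D.ι w b) = 0 → b = 0 := by
      intro b hb
      rw [hN, sub_eq_zero] at hb
      have h3 := D.indep hω (w := α.1 w) (w' := w) hw (b := β.1 b) (b' := -b) (by rw [map_neg, hb]; abel)
      rw [← inv_apply β b, h3, map_zero]
    have key : ∀ b, ω u' (α.1 z) • β.1 b = b := by
      intro b
      obtain ⟨b', hb'⟩ := range_fibre hrank hinj (D.ι z b)
      have h3 := congrArg (D.κ u') hb'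
      rw [hN, hN, map_sub, map_sub, D.κι, D.κι, D.κι, D.κι, h0, h1, hz, one_smul, zero_smul, zero_smul,
        sub_zero, sub_eq_zero] at h3
      exact h3
    obtain ⟨b₀, hb₀⟩ := exists_ne (0 : B)
    have hne : ω u' (α.1 z) ≠ 0 := by
      intro h0
      have := key b₀
      rw [h0, zero_smul] at this
      exact hb₀ this.symm
    refine ⟨(ω u' (α.1 z))⁻¹, LinearMap.ext fun b => ?_⟩
    rw [LinearMap.smul_apply, Module.End.one_apply]
    conv_rhs => rw [← key b]
    rw [inv_smul_smul₀ hne]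

/-- **R'.** -/
theorem sum_scalar [Nontrivial B] [FiniteDimensional F V] (hω : Symp ω)
    (hk : (2 : F) ≠ 0 ∨ 4 ≤ k) (x : Module.End F (Fin k → F)) (s : Module.End F B)
    (hsq : (D.map hω x 1 + D.map hω 1 s) * (D.map hω x 1 + D.map hω 1 s) = 0)
    (hrank : finrank F (LinearMap.range (D.map hω x 1 + D.map hω 1 s)) = finrank F B) :
    (∃ c : F, x = c • 1) ∨ (∃ c : F, s = c • 1) := by
  by_cases hα : ∀ w, ∃ c : F, x w = c • w
  · exact Or.inl (scalar_of_forall hα)
  right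
  push Not at hα
  obtain ⟨w, hw⟩ := hα
  have hN : ∀ z b, (D.map hω x 1 + D.map hω 1 s) (D.ι z b) = D.ι (x z) b + D.ι z (s b) := by
    intro z b
    rw [LinearMap.add_apply, D.map_ι, D.map_ι, Module.End.one_apply, Module.End.one_apply]
  rcases hk with h2 | hk
  · obtain ⟨u, hu1, hu2⟩ := hω.exists_sep hw trivial
    have key : ∀ b, ω u (x (x w)) • b + (2 : F) • s b = 0 := by
      intro b
      have h1 := congrArg (D.κ u) (LinearMap.congr_fun hsq (D.ι w b))
      rw [Module.End.mul_apply, hN, map_add, hN, hN, LinearMap.zero_apply, map_zero, map_add, map_add, map_add]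
        at h1
      simp only [D.κι, hu1, hu2, one_smul, zero_smul, add_zero] at h1
      rw [two_smul, ← h1]; abel
    refine ⟨-(2⁻¹ * ω u (x (x w))), LinearMap.ext fun b => ?_⟩
    rw [LinearMap.smul_apply, Module.End.one_apply, neg_smul, mul_smul, eq_neg_of_add_eq_zero_left (key b),
      smul_neg, neg_neg, inv_smul_smul₀ h2]
  · obtain ⟨u', hu', hu0⟩ := exists_perp_avoid hω ![w, x w] 0 (by omega)
    have hu0' : u' ≠ 0 := by simpa using hu0 0
    have h0 := hu' 0
    have h1 := hu' 1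
    simp only [Matrix.cons_val_zero, Matrix.cons_val_one, Matrix.cons_val_fin_one] at h0 h1
    rw [hω.skew, neg_eq_zero] at h0 h1
    obtain ⟨z, hz⟩ := hω.exists_pair hu0'
    have hinj : ∀ b, (D.map hω x 1 + D.map hω 1 s) (D.ι w b) = 0 → b = 0 := by
      intro b hb
      rw [hN] at hb
      exact D.indep hω (w := x w) (w' := w) hw hb
    refine ⟨-(ω u' (x z)), LinearMap.ext fun b => ?_⟩
    obtain ⟨b', hb'⟩ := range_fibre hrank hinj (D.ι z b)
    have h3 := congrArg (D.κ u') hb'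
    rw [hN, hN, map_add, map_add, D.κι, D.κι, D.κι, D.κι, h0, h1, hz, one_smul, zero_smul, zero_smul,
      add_zero] at h3
    rw [LinearMap.smul_apply, Module.End.one_apply, neg_smul]
    exact eq_neg_of_add_eq_zero_right h3

/-- Root-like elements of `End W ⊗ 1` are roots. -/
theorem rl_left [Nontrivial B] [FiniteDimensional F V] [FiniteDimensional F B] (hω : Symp ω)
    (hf : D.Forms fB fV) {ν : Module.End F (Fin k → F)} (h : RL B fV (D.map hω ν 1)) :
    ∃ (u : Fin k → F) (c : F), u ≠ 0 ∧ c ≠ 0 ∧ D.map hω ν 1 = c • D.cs u 1 := by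
  have hN : ∀ z b, D.map hω ν 1 (D.ι z b) = D.ι (ν z) b := fun z b => by
    rw [D.map_ι, Module.End.one_apply]
  obtain ⟨w₀, hw₀⟩ : ∃ w₀, ν w₀ ≠ 0 := by
    by_contra hcon
    push Not at hcon
    have h1 : D.map hω ν 1 = 0 := D.ext hω fun w b => by rw [hN, hcon, map_zero]; rfl
    have h2 := h.rank
    rw [h1, LinearMap.range_zero, finrank_bot] at h2
    exact (finrank_pos (R := F) (M := B)).ne h2
  set u := ν w₀ with hu
  obtain ⟨b₀, hb₀⟩ := exists_ne (0 : B)
  have hφ : ∀ z, ∃ c : F, ν z = c • u := by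
    intro z
    by_contra hcon
    push Not at hcon
    obtain ⟨b', hb'⟩ := range_fibre (D := D) (w := w₀) h.rank (by
      intro b hb
      rw [hN] at hb
      exact D.ι_inj hω hw₀ hb) (D.ι z b₀)
    rw [hN, hN] at hb'
    exact hb₀ (D.indep hω (w := ν z) (w' := u) hcon (b := b₀) (b' := -b') (by rw [map_neg, hb']; abel))
  have hskew : ∀ z z', ω (ν z) z' = ω (ν z') z := by
    intro z z'
    obtain ⟨b', hb'⟩ : ∃ b', fB b₀ b' ≠ 0 := by
      by_contra hc
      push Not at hc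
      exact hb₀ (hf.ndl _ hc)
    have h1 := h.skew (D.ι z b₀) (D.ι z' b')
    rw [hN, hN, hf.ιι, hf.ιι, ← neg_mul] at h1
    rw [mul_right_cancel₀ hb' h1, hω.skew z, neg_neg]
  obtain ⟨v₀, hv₀⟩ := hω.exists_pair hw₀
  obtain ⟨c, hc⟩ := hφ v₀
  have hν : ∀ z, ν z = (c * ω u z) • u := by
    intro z
    obtain ⟨d, hd⟩ := hφ z
    have h1 := hskew z v₀
    rw [hd, hc, map_smul, map_smul, LinearMap.smul_apply, LinearMap.smul_apply, hv₀, smul_eq_mul, mul_one,
      smul_eq_mul] at h1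
    rw [hd, h1]
  refine ⟨u, c, hw₀, ?_, ?_⟩
  · rintro rfl
    apply hw₀
    rw [hu, hν w₀, zero_mul, zero_smul]
  · refine D.ext hω fun z b => ?_
    rw [hN, hν, LinearMap.smul_apply, TD.cs_apply, D.κι, Module.End.one_apply, map_smul, LinearMap.smul_apply,
      map_smul, mul_smul]

/-- Decomposable isometries are pairs of similitudes. -/
theorem sim_of_iso [Nontrivial B] (hω : Symp ω) (hf : D.Forms fB fV) (hk : 0 < k)
    {α : (Module.End F (Fin k → F))ˣ} {β : (Module.End F B)ˣ}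
    (h : ∀ v w, fV ((D.mapU hω α β).1 v) ((D.mapU hω α β).1 w) = fV v w) :
    ∃ μ : F, μ ≠ 0 ∧ ∀ x y, ω (α.1 x) (α.1 y) = μ * ω x y := by
  obtain ⟨b₀, hb₀⟩ := exists_ne (0 : B)
  obtain ⟨b', hb'⟩ : ∃ b', fB b₀ b' ≠ 0 := by
    by_contra hc
    push Not at hc
    exact hb₀ (hf.ndl _ hc)
  have h1 : ∀ x y, ω (α.1 x) (α.1 y) * fB (β.1 b₀) (β.1 b') = ω x y * fB b₀ b' := by
    intro x y
    have := h (D.ι x b₀) (D.ι y b')
    rwa [D.mapU_ι, D.mapU_ι, hf.ιι, hf.ιι] at this
  have hne : (Pi.single (⟨0, hk⟩ : Fin k) (1 : F) : Fin k → F) ≠ 0 := by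
    intro h0
    have := congrFun h0 ⟨0, hk⟩
    rw [Pi.single_eq_same] at this
    exact one_ne_zero this
  obtain ⟨y, hy⟩ := hω.exists_pair hne
  have h2 : fB (β.1 b₀) (β.1 b') ≠ 0 := by
    intro h0
    have := h1 (Pi.single (⟨0, hk⟩ : Fin k) (1 : F)) y
    rw [h0, mul_zero, hy, one_mul] at this
    exact hb' this.symm
  refine ⟨fB b₀ b' / fB (β.1 b₀) (β.1 b'), div_ne_zero hb' h2, fun x y => ?_⟩
  rw [div_mul_eq_mul_div, eq_div_iff h2, h1, mul_comm]

/-- Units commuting with all `c_u` are `1 ⊗ β`. -/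
theorem unit_of_comm (hω : Symp ω) {a₀ : Fin k → F} (ha₀ : a₀ ≠ 0) {y : (Module.End F V)ˣ}
    (h : ∀ u, y.1 * D.cs u 1 = D.cs u 1 * y.1) : ∃ β : (Module.End F B)ˣ, y = D.mapU hω 1 β := by
  obtain ⟨s, hs⟩ := one_map_of_comm D hω ha₀ h
  have h' : ∀ u, (y⁻¹).1 * D.cs u 1 = D.cs u 1 * (y⁻¹).1 := by
    intro u
    have e1 : (y⁻¹).1 * y.1 = 1 := by rw [← Units.val_mul, inv_mul_cancel, Units.val_one]
    have e2 : y.1 * (y⁻¹).1 = 1 := by rw [← Units.val_mul, mul_inv_cancel, Units.val_one]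
    calc (y⁻¹).1 * D.cs u 1 = (y⁻¹).1 * (D.cs u 1 * y.1) * (y⁻¹).1 := by
          rw [mul_assoc, mul_assoc, e2, mul_one]
      _ = (y⁻¹).1 * (y.1 * D.cs u 1) * (y⁻¹).1 := by rw [h]
      _ = D.cs u 1 * (y⁻¹).1 := by rw [← mul_assoc, e1, one_mul]
  obtain ⟨s', hs'⟩ := one_map_of_comm D hω ha₀ h'
  have key : ∀ s s' : Module.End F B, D.map hω 1 s * D.map hω 1 s' = 1 → s * s' = 1 := by
    intro s s' hss
    refine LinearMap.ext fun b => ?_
    have h1 := LinearMap.congr_fun hss (D.ι a₀ b)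
    rw [D.map_mul, D.map_ι, mul_one, Module.End.one_apply, Module.End.one_apply, ← sub_eq_zero, ← map_sub] at h1
    exact sub_eq_zero.1 (D.ι_inj hω ha₀ h1)
  refine ⟨⟨s, s', key _ _ ?_, key _ _ ?_⟩, Units.ext hs⟩
  · rw [← hs, ← hs', ← Units.val_mul, mul_inv_cancel, Units.val_one]
  · rw [← hs, ← hs', ← Units.val_mul, inv_mul_cancel, Units.val_one]

variable {M : Subgroup (Module.End F V)ˣ}

/-- Conjugating a root of the slot to a root of the slot. -/
theorem same_slot [Nontrivial B] (hω : Symp ω) (hf : D.Forms fB fV) (hM : GoodM hω D fB fV M)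
    (hL : ∀ a : Fin k → F, a ≠ 0 → LayerC hω D M a) (hF : FieldOK ω) {a u : Fin k → F} {μ : F} (ha : a ≠ 0)
    (hu : u ≠ 0) (hμ : μ ≠ 0) {g : (Module.End F V)ˣ} (hg : g ∈ M)
    (h : g.1 * D.cs a 1 = μ • (D.cs u 1 * g.1)) :
    ∃ (α : (Module.End F (Fin k → F))ˣ) (β : (Module.End F B)ˣ), g = D.mapU hω α β := by
  obtain ⟨γ, hγ, hγu⟩ := exists_iso_of_ne hω hu ha
  obtain ⟨α, β, _, h1⟩ := step1 (μ := μ) hω hf hM (hL a ha) hF ha hμ (M.mul_mem (hM.sp γ hγ) hg) (by
    intro v
    have e1 := LinearMap.congr_fun h v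
    rw [Module.End.mul_apply, LinearMap.smul_apply, Module.End.mul_apply] at e1
    have e2 : ∀ v, (D.mapU hω γ 1).1 (D.cs u 1 v) = D.cs a 1 ((D.mapU hω γ 1).1 v) := by
      intro v
      rw [TD.cs_apply, TD.cs_apply, Module.End.one_apply, Module.End.one_apply, D.mapU_ι, hγu, ← hγu,
        κ_mapU hω D hγ]
    rw [mul_app, mul_app, e1, map_smul, e2])
  refine ⟨γ⁻¹ * α, β, ?_⟩
  have h2 : g = (D.mapU hω γ 1)⁻¹ * (D.mapU hω γ 1 * g) := by rw [inv_mul_cancel_left]
  rw [h2, h1, D.mapU_inv hω, D.mapU_mul, inv_one, one_mul]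

end

end Cfsg.Agent.H889.C7
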