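import Mathlib
import Cfsg.Agent.H889.C7.Rank
import Cfsg.Agent.H889.C7.Free

/-!
The fixed points of root elements on the cosets of the decomposable elements.
-/

set_option autoImplicit false
set_option linter.unusedSectionVars false
set_option linter.unusedVariables false
set_option linter.unusedSimpArgs false

namespace Cfsg.Agent.H889.C7

open Module

variable {F : Type*} [Field F] {k : ℕ} {ω : LinearMap.BilinForm F (Fin k → F)} {B V : Type*}
  [AddCommGroup B] [Module F B] [AddCommGroup V] [Module F V]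

/-- Conjugation. -/
def cj (g : (Module.End F V)ˣ) : Module.End F V →+ Module.End F V where
  toFun z := g.1 * z * (g⁻¹).1
  map_zero' := by rw [mul_zero, zero_mul]
  map_add' z z' := by rw [mul_add, add_mul]

theorem cj_apply (g : (Module.End F V)ˣ) (z : Module.End F V) : cj g z = g.1 * z * (g⁻¹).1 := rfl

theorem cj_mul' (g h : (Module.End F V)ˣ) (z : Module.End F V) : cj (g * h) z = cj g (cj h z) := by
  rw [cj_apply, cj_apply, cj_apply, mul_inv_rev, Units.val_mul, Units.val_mul]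
  simp only [mul_assoc]

theorem cj_one' (z : Module.End F V) : cj (1 : (Module.End F V)ˣ) z = z := by
  rw [cj_apply, inv_one, Units.val_one, one_mul, mul_one]

theorem cj_inv_self (g : (Module.End F V)ˣ) (z : Module.End F V) : cj g (cj g⁻¹ z) = z := by
  rw [← cj_mul', mul_inv_cancel, cj_one']

theorem cj_inv_self' (g : (Module.End F V)ˣ) (z : Module.End F V) : cj g⁻¹ (cj g z) = z := by
  rw [← cj_mul', inv_mul_cancel, cj_one']

theorem cj_prod (g : (Module.End F V)ˣ) (z z' : Module.End F V) : cj g (z * z') = cj g z * cj g z' := by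
  have e : (g⁻¹).1 * g.1 = 1 := by rw [← Units.val_mul, inv_mul_cancel, Units.val_one]
  rw [cj_apply, cj_apply, cj_apply]
  calc g.1 * (z * z') * (g⁻¹).1 = g.1 * z * 1 * z' * (g⁻¹).1 := by simp only [mul_assoc, mul_one, one_mul]
    _ = _ := by rw [← e]; simp only [mul_assoc]

theorem cj_smul (g : (Module.End F V)ˣ) (c : F) (z : Module.End F V) : cj g (c • z) = c • cj g z := by
  rw [cj_apply, cj_apply, mul_smul_comm, smul_mul_assoc]

theorem cj_one (g : (Module.End F V)ˣ) : cj g (1 : Module.End F V) = 1 := by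
  rw [cj_apply, mul_one, ← Units.val_mul, mul_inv_cancel, Units.val_one]

theorem cj_comm (g : (Module.End F V)ˣ) (z z' : Module.End F V) :
    cj g z * z' = z' * cj g z ↔ z * cj g⁻¹ z' = cj g⁻¹ z' * z := by
  constructor
  · intro h
    have := congrArg (cj g⁻¹) h
    rwa [cj_prod, cj_prod, cj_inv_self'] at this
  · intro h
    have := congrArg (cj g) h
    rwa [cj_prod, cj_prod, cj_inv_self] at this

theorem cj_eq_iff (g : (Module.End F V)ˣ) (z z' : Module.End F V) :
    cj g z = z' ↔ g.1 * z = z' * g.1 := by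
  have e : (g⁻¹).1 * g.1 = 1 := by rw [← Units.val_mul, inv_mul_cancel, Units.val_one]
  have e' : g.1 * (g⁻¹).1 = 1 := by rw [← Units.val_mul, mul_inv_cancel, Units.val_one]
  rw [cj_apply]
  constructor
  · intro h
    rw [← h, mul_assoc _ (g⁻¹).1, e, mul_one]
  · intro h
    rw [h, mul_assoc, e', mul_one]

/-- The decomposable elements. -/
def Dec (hω : Symp ω) (D : TD ω B V) : Subgroup (Module.End F V)ˣ where
  carrier := {g | ∃ α β, g = D.mapU hω α β}
  mul_mem' := by
    rintro _ _ ⟨α, β, rfl⟩ ⟨α', β', rfl⟩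
    exact ⟨α * α', β * β', D.mapU_mul hω _ _ _ _⟩
  one_mem' := ⟨1, 1, (D.mapU_one hω).symm⟩
  inv_mem' := by
    rintro _ ⟨α, β, rfl⟩
    exact ⟨α⁻¹, β⁻¹, D.mapU_inv hω _ _⟩

theorem mem_Dec {hω : Symp ω} {D : TD ω B V} {g : (Module.End F V)ˣ} :
    g ∈ Dec hω D ↔ ∃ α β, g = D.mapU hω α β := Iff.rfl

/-- The context of the slot theorem. -/
structure Ctx (hω : Symp ω) (D : TD ω B V) (fB : LinearMap.BilinForm F B)
    (fV : LinearMap.BilinForm F V) (M : Subgroup (Module.End F V)ˣ) : Prop where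
  hf : D.Forms fB fV
  hM : GoodM hω D fB fV M
  hL : ∀ a : Fin k → F, a ≠ 0 → LayerC hω D M a
  hF : FieldOK ω
  hk : (2 : F) ≠ 0 ∨ 4 ≤ k
  hk0 : 0 < k

/-- The root element. -/
noncomputable def rU (hω : Symp ω) (D : TD ω B V) (w : Fin k → F) (c : F) : (Module.End F V)ˣ :=
  D.mapU hω (tv hω c w) 1

theorem rU_val (hω : Symp ω) (D : TD ω B V) (w : Fin k → F) (c : F) :
    (rU hω D w c).1 = 1 + c • D.cs w 1 := by
  rw [rU, mapU_tv_val]
  congr 1
  refine LinearMap.ext fun v => ?_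
  simp only [TD.cs_apply, LinearMap.smul_apply, Module.End.one_apply, map_smul]

theorem rU_add (hω : Symp ω) (D : TD ω B V) (w : Fin k → F) (c d : F) :
    rU hω D w (c + d) = rU hω D w c * rU hω D w d := by
  apply Units.ext
  have hsq : D.cs w 1 * D.cs w 1 = 0 := by rw [cs_mul_cs, hω.alt, zero_smul]
  rw [Units.val_mul, rU_val, rU_val, rU_val, add_mul, mul_add, one_mul, one_mul, smul_mul_assoc, mul_add, mul_one,
    mul_smul_comm, hsq, smul_zero, add_zero, add_smul]
  abel

theorem rU_zero (hω : Symp ω) (D : TD ω B V) (w : Fin k → F) : rU hω D w 0 = 1 := by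
  apply Units.ext
  rw [rU_val, zero_smul, add_zero, Units.val_one]

theorem rU_neg (hω : Symp ω) (D : TD ω B V) (w : Fin k → F) (c : F) : (rU hω D w c)⁻¹ = rU hω D w (-c) := by
  rw [inv_eq_iff_mul_eq_one, ← rU_add, add_neg_cancel, rU_zero]

section

variable {D : TD ω B V} {fB : LinearMap.BilinForm F B} {fV : LinearMap.BilinForm F V}
  {M : Subgroup (Module.End F V)ˣ} {hω : Symp ω}

theorem Ctx.mem_rU (h : Ctx hω D fB fV M) (w : Fin k → F) (c : F) : rU hω D w c ∈ M :=
  h.hM.sp _ (isoW_tv hω _ _)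

theorem cs_eq_map (w : Fin k → F) : D.cs w 1 = D.map hω (rk ω w w) 1 := by
  rw [TD.cs_eq_el, D.el_eq_map hω]

theorem map_comm_map (x : Module.End F (Fin k → F)) (s : Module.End F B) :
    D.map hω x 1 * D.map hω 1 s = D.map hω 1 s * D.map hω x 1 := by
  rw [D.map_mul, D.map_mul, one_mul, mul_one, one_mul, mul_one]

/-- `g A g⁻¹` commutes with `A`. -/
def PC (D : TD ω B V) (g : (Module.End F V)ˣ) : Prop :=
  ∀ u v, cj g (D.cs u 1) * D.cs v 1 = D.cs v 1 * cj g (D.cs u 1)

theorem exists_ne_vec (hk : 0 < k) : ∃ a : Fin k → F, a ≠ 0 :=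
  ⟨Pi.single (⟨0, hk⟩ : Fin k) (1 : F), fun h0 => by
    have := congrFun h0 ⟨0, hk⟩
    rw [Pi.single_eq_same] at this
    exact one_ne_zero this⟩

/-- From `PC` one gets commutation of the full algebras. -/
theorem PC.full (h : Ctx hω D fB fV M) {g : (Module.End F V)ˣ} (hP : PC D g)
    (x x' : Module.End F (Fin k → F)) :
    cj g (D.map hω x 1) * D.map hω x' 1 = D.map hω x' 1 * cj g (D.map hω x 1) := by
  obtain ⟨a₀, ha₀⟩ := exists_ne_vec (F := F) h.hk0
  -- first `cs u` with `map x'`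
  have h1 : ∀ u, ∃ s, cj g (D.cs u 1) = D.map hω 1 s := fun u => one_map_of_comm D hω ha₀ (hP u)
  have h2 : ∀ v, cj g⁻¹ (D.map hω x' 1) * D.cs v 1 = D.cs v 1 * cj g⁻¹ (D.map hω x' 1) := by
    intro v
    rw [cj_comm, inv_inv]
    obtain ⟨s, hs⟩ := h1 v
    rw [hs, map_comm_map]
  obtain ⟨s, hs⟩ := one_map_of_comm D hω ha₀ h2
  rw [cj_comm, hs, map_comm_map]

/-- **Fixed points.** -/
theorem fix_iff [Nontrivial B] [FiniteDimensional F V] [FiniteDimensional F B] (h : Ctx hω D fB fV M)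
    {w : Fin k → F} (hw : w ≠ 0) {c : F} (hc : c ≠ 0) {g : (Module.End F V)ˣ} (hg : g ∈ M) :
    g⁻¹ * rU hω D w c * g ∈ Dec hω D ↔ g ∈ Dec hω D ∨ PC D g := by
  have hrl : ∀ {x : (Module.End F V)ˣ}, x ∈ M → ∀ {u : Fin k → F}, u ≠ 0 → RL B fV (cj x (D.cs u 1)) :=
    fun hx u hu => (rl_cs hω h.hf hu).conj (h.hM.isom _ hx)
  constructor
  · rintro ⟨α, β, hs⟩
    have hN : D.map hω α.1 β.1 - 1 = c • cj g⁻¹ (D.cs w 1) := by
      have h1 : (g⁻¹ * rU hω D w c * g).1 = cj g⁻¹ (rU hω D w c).1 := by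
        rw [cj_apply, inv_inv, Units.val_mul, Units.val_mul]
      rw [hs] at h1
      have h2 : D.map hω α.1 β.1 = cj g⁻¹ (rU hω D w c).1 := h1
      rw [h2, rU_val, map_add, cj_one, cj_smul, add_sub_cancel_left]
    have hRL : RL B fV (D.map hω α.1 β.1 - 1) := by
      rw [hN]; exact (hrl (M.inv_mem hg) hw).smul hc
    rcases dec_scalar hω h.hk α β hRL.sq hRL.rank with ⟨d, hd⟩ | ⟨d, hd⟩
    · -- `α` scalar
      have hcomm : ∀ v, cj g (D.cs v 1) * D.cs w 1 = D.cs w 1 * cj g (D.cs v 1) := by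
        intro v
        have h1 : cj g⁻¹ (D.cs w 1) * D.cs v 1 = D.cs v 1 * cj g⁻¹ (D.cs w 1) := by
          have h2 : cj g⁻¹ (D.cs w 1) = c⁻¹ • (D.map hω α.1 β.1 - 1) := by
            rw [hN, inv_smul_smul₀ hc]
          have h3 : D.map hω α.1 β.1 = D.map hω 1 (d • β.1) := by
            rw [hd, D.map_smul_left, D.map_smul_right]
          rw [h2, h3, cs_eq_map (hω := hω) v, smul_mul_assoc, mul_smul_comm, sub_mul, mul_sub, one_mul, mul_one,
            map_comm_map]
        rw [cj_comm, inv_inv] at h1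
        exact h1.symm
      by_cases hgD : g ∈ Dec hω D
      · exact Or.inl hgD
      right
      intro v u
      by_cases hv : v = 0
      · have h0 : D.cs (0 : Fin k → F) 1 = 0 := by
          refine LinearMap.ext fun x => ?_
          rw [TD.cs_apply]; simp
        rw [hv, h0, map_zero, zero_mul, mul_zero]
      have hxM : g * rU hω D v 1 * g⁻¹ ∈ M := M.mul_mem (M.mul_mem hg (h.mem_rU _ _)) (M.inv_mem hg)
      have hxv : (g * rU hω D v 1 * g⁻¹).1 = 1 + cj g (D.cs v 1) := by
        have h1 : (g * rU hω D v 1 * g⁻¹).1 = cj g (rU hω D v 1).1 := by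
          rw [cj_apply, Units.val_mul, Units.val_mul]
        rw [h1, rU_val, one_smul, map_add, cj_one]
      obtain ⟨α₁, β₁, _, h₁⟩ := step1 (μ := 1) hω h.hf h.hM (h.hL w hw) h.hF hw one_ne_zero hxM (by
        intro x
        rw [one_smul, hxv, LinearMap.add_apply, LinearMap.add_apply, Module.End.one_apply, Module.End.one_apply,
          map_add, ← Module.End.mul_apply, hcomm, Module.End.mul_apply])
      have hN₁ : D.map hω α₁.1 β₁.1 - 1 = cj g (D.cs v 1) := by
        have h2 : (g * rU hω D v 1 * g⁻¹).1 = D.map hω α₁.1 β₁.1 := by rw [h₁]; rfl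
        rw [← h2, hxv, add_sub_cancel_left]
      have hRL₁ : RL B fV (D.map hω α₁.1 β₁.1 - 1) := by
        rw [hN₁]; exact hrl hg hv
      rcases dec_scalar hω h.hk α₁ β₁ hRL₁.sq hRL₁.rank with ⟨d₁, hd₁⟩ | ⟨d₁, hd₁⟩
      · rw [← hN₁, hd₁, D.map_smul_left, ← D.map_smul_right, cs_eq_map (hω := hω) u, sub_mul, mul_sub, one_mul,
          mul_one, map_comm_map]
      · exfalso
        have h2 : D.map hω α₁.1 β₁.1 - 1 = D.map hω (d₁ • α₁.1 - 1) 1 := by
          rw [hd₁, D.map_smul_right, ← D.map_smul_left]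
          have h3 := D.map_add_left hω (d₁ • α₁.1 - 1) 1 1
          rw [sub_add_cancel, D.map_one] at h3
          rw [h3, add_sub_cancel_right]
        rw [h2] at hRL₁ hN₁
        obtain ⟨u', c', hu', hc', huc⟩ := rl_left hω h.hf hRL₁
        rw [huc] at hN₁
        apply hgD
        exact same_slot hω h.hf h.hM h.hL h.hF hv hu' hc' hg (by
          have := (cj_eq_iff g _ _).1 hN₁.symm
          rw [this, smul_mul_assoc])
    · -- `β` scalar
      left
      have h2 : D.map hω α.1 β.1 - 1 = D.map hω (d • α.1 - 1) 1 := by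
        rw [hd, D.map_smul_right, ← D.map_smul_left]
        have h3 := D.map_add_left hω (d • α.1 - 1) 1 1
        rw [sub_add_cancel, D.map_one] at h3
        rw [h3, add_sub_cancel_right]
      rw [h2] at hRL hN
      obtain ⟨u', c', hu', hc', huc⟩ := rl_left hω h.hf hRL
      rw [huc] at hN
      have h3 : cj g⁻¹ (D.cs w 1) = (c⁻¹ * c') • D.cs u' 1 := by
        rw [mul_smul, hN, inv_smul_smul₀ hc]
      have h4 : g⁻¹ ∈ Dec hω D :=
        same_slot hω h.hf h.hM h.hL h.hF hw hu' (mul_ne_zero (inv_ne_zero hc) hc') (M.inv_mem hg) (by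
          have := (cj_eq_iff g⁻¹ _ _).1 h3
          rw [this, smul_mul_assoc])
      have := (Dec hω D).inv_mem h4
      rwa [inv_inv] at this
  · rintro (hgD | hP)
    · have h1 : rU hω D w c ∈ Dec hω D := ⟨_, _, rfl⟩
      exact (Dec hω D).mul_mem ((Dec hω D).mul_mem ((Dec hω D).inv_mem hgD) h1) hgD
    · obtain ⟨a₀, ha₀⟩ := exists_ne_vec (F := F) h.hk0
      obtain ⟨β, hβ⟩ := unit_of_comm (D := D) hω ha₀ (y := g⁻¹ * rU hω D w c * g) (by
        intro u
        have h1 : (g⁻¹ * rU hω D w c * g).1 = cj g⁻¹ (rU hω D w c).1 := by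
          rw [cj_apply, inv_inv, Units.val_mul, Units.val_mul]
        rw [h1, rU_val, map_add, cj_one, cj_smul, add_mul, mul_add, one_mul, mul_one, smul_mul_assoc,
          mul_smul_comm]
        have h2 := hP u w
        have h3 : cj g⁻¹ (D.cs w 1) * D.cs u 1 = D.cs u 1 * cj g⁻¹ (D.cs w 1) := by
          rw [cj_comm, inv_inv]
          exact h2.symm
        rw [h3])
      exact ⟨1, β, hβ⟩

end

end Cfsg.Agent.H889.C7
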