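import Mathlib
import Cfsg.Agent.H889.C7.SlotThm2

/-!
`M` normalises the set of root elements of the slots of `T n`.
-/

set_option autoImplicit false
set_option linter.unusedSectionVars false
set_option linter.unusedVariables false
set_option linter.unusedSimpArgs false

namespace Cfsg.Agent.H889.C7

open Module Cfsg.Agent.H889

variable {F : Type*} [Field F] {k : ℕ} {ω : LinearMap.BilinForm F (Fin k → F)}

/-- Groups in case I. -/
structure GoodT (hω : Symp ω) (n : ℕ) (M : Subgroup (Module.End F (T F k (n + 1)))ˣ) : Prop where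
  isom : ∀ g ∈ M, ∀ v w, fT ω (n + 1) (g.1 v) (g.1 w) = fT ω (n + 1) v w
  sp : ∀ (i : Fin (n + 1)) (α : (Module.End F (Fin k → F))ˣ), IsoW ω α → sU i α ∈ M
  caseI : ∀ i : Fin (n + 1), ∀ a, a ≠ 0 → ∀ s : Module.End F (T F k n), ∀ g ∈ M,
    g.1 = 1 + (DT hω i).cs a s → ∃ τ : F, s = τ • 1

section

variable {hω : Symp ω}

theorem GoodT.goodM {n : ℕ} {M : Subgroup (Module.End F (T F k (n + 1)))ˣ} (h : GoodT hω n M)
    (i : Fin (n + 1)) : GoodM hω (DT hω i) (fT ω n) (fT ω (n + 1)) M where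
  isom := h.isom
  sp := fun α hα => by rw [mapU_sU]; exact h.sp i α hα
  caseI := h.caseI i

theorem exists_zeta [Fintype F] (h : 3 < Fintype.card F) : ∃ ζ : F, ζ ≠ 0 ∧ ζ ^ 2 ≠ 1 := by
  classical
  by_contra hcon
  push Not at hcon
  have h1 : (Finset.univ : Finset F) ⊆ {0, 1, -1} := by
    intro ζ _
    by_cases h0 : ζ = 0
    · simp [h0]
    · have := hcon ζ h0
      rw [pow_two] at this
      rcases mul_self_eq_one_iff.1 this with h | h <;> simp [h]
  have h2 := Finset.card_le_card h1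
  rw [Finset.card_univ] at h2
  have h3 : ({0, 1, -1} : Finset F).card ≤ 3 := Finset.card_le_three
  omega

theorem fieldOK [Fintype F] (hω : Symp ω) (hK : KOK F k) : FieldOK ω := by
  have hodd : 4 ≤ k → (2 : F) ≠ 0 → FieldOK ω := by
    intro hk h2
    obtain ⟨u, hu⟩ := exists_ne_vec (F := F) (k := k) (by omega)
    obtain ⟨n, hn, hn'⟩ := exists_perp_avoid hω ![u] u (by omega)
    have hn0 := hn 0
    simp only [Matrix.cons_val_zero, Matrix.cons_val_fin_one] at hn0
    refine Or.inr (Or.inl ⟨h2, u, n, hn0, hu, ?_, ?_, ?_⟩)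
    · intro h0
      exact hn' 0 (by rw [h0, zero_smul])
    · intro h0
      exact hn' (-1) (by rw [neg_one_smul, eq_neg_of_add_eq_zero_left h0])
    · intro h0
      exact hn' 1 (by rw [one_smul, sub_eq_zero.1 h0])
  rcases hK with ⟨hk, h2, hcard⟩ | ⟨hk, h2⟩ | hk
  · exact Or.inl (exists_zeta hcard)
  · exact hodd hk h2
  · by_cases h2 : (2 : F) = 0
    · obtain ⟨w, w', x, x', y, y', h1, h2', h3, h4, h5, h6, h7, h8, h9, h10, h11, h12, h13, h14, h15⟩ :=
        exists_three_pairs hω hk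
      have hz : ∀ v v' : Fin k → F, ω v v' = 1 → v ≠ 0 := by
        rintro v v' h rfl
        simp at h
      refine Or.inr (Or.inr ⟨h2, w, x, y, h4, h6, h12, hz _ _ h1, hz _ _ h2', hz _ _ h3, hz _ x' ?_, hz _ y' ?_,
        hz _ y' ?_, hz _ y' ?_⟩)
      · rw [map_add, LinearMap.add_apply, h5, h2', zero_add]
      · rw [map_add, LinearMap.add_apply, h7, h3, zero_add]
      · rw [map_add, LinearMap.add_apply, h13, h3, zero_add]
      · rw [map_add, map_add, LinearMap.add_apply, LinearMap.add_apply, h7, h13, h3, zero_add, zero_add]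
    · exact hodd (by omega) h2

theorem KOK.pos [Fintype F] (hK : KOK F k) : 0 < k := by
  rcases hK with ⟨hk, _, _⟩ | ⟨hk, _⟩ | hk <;> omega

theorem KOK.hk [Fintype F] (hK : KOK F k) : (2 : F) ≠ 0 ∨ 4 ≤ k := by
  rcases hK with ⟨hk, h2, _⟩ | ⟨hk, h2⟩ | hk
  · exact Or.inl h2
  · exact Or.inl h2
  · exact Or.inr (by omega)

theorem perp_two (hω : Symp ω) (hk : k = 2) {a m : Fin k → F} (ha : a ≠ 0) (hm : ω a m = 0) :
    ∃ c : F, m = c • a := by
  obtain ⟨a', ha'⟩ := hω.exists_pair ha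
  have h := plucker hω hk a a' m
  rw [hm, ha', zero_smul, one_smul, zero_sub] at h
  exact ⟨-ω a' m, by rw [neg_smul, h]⟩

instance T_nontrivial {n : ℕ} [h : NeZero k] : Nontrivial (T F k n) := by
  have : Nonempty (Fin k) := ⟨⟨0, Nat.pos_of_ne_zero h.1⟩⟩
  infer_instance

theorem scalar_T0 (s : Module.End F (T F k 0)) : ∃ τ : F, s = τ • 1 := by
  refine ⟨s (tp fun i => 0) default, LinearMap.ext fun v => ?_⟩
  have h1 : tp (fun i : Fin 0 => (0 : Fin k → F)) default = 1 := by rw [tp_apply, Fin.prod_univ_zero]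
  rw [tp_zero_eq v, map_smul, LinearMap.smul_apply, Module.End.one_apply, tp_zero_eq (s _), smul_comm,
    Pi.smul_apply, h1, smul_eq_mul, mul_one]

theorem GoodT.triv [Fintype F] (hK : KOK F k) (hk : k ≠ 2) {n : ℕ}
    {M : Subgroup (Module.End F (T F k (n + 1)))ˣ}
    (h : GoodT hω n M) (i : Fin (n + 1)) : TrivT hω (DT hω i) (fT ω n) M := by
  intro T' h1 hinv hcon s hs
  cases n with
  | zero => exact scalar_T0 s
  | succ n =>
    have hT : SlotInv ω T' := by
      intro j α hα s hs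
      exact hinv (sU j α) (by rw [mapU_one_sU]; exact h.sp _ α hα) s hs
    rcases hK with ⟨hk', _, _⟩ | ⟨hk', h2⟩ | hk'
    · exact absurd hk' hk
    · exact triv_odd hω h2 hk' h1 hT hcon hs
    · exact triv_even hω hk' hT hcon hs

theorem GoodT.layerC [Fintype F] (hK : KOK F k) {n : ℕ} {M : Subgroup (Module.End F (T F k (n + 1)))ˣ}
    (h : GoodT hω n M) (i : Fin (n + 1)) {a : Fin k → F} (ha : a ≠ 0) : LayerC hω (DT hω i) M a := by
  have : NeZero k := ⟨hK.pos.ne'⟩
  obtain ⟨a', haa'⟩ := hω.exists_pair ha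
  intro g hg hgU
  by_cases hk : k = 2
  · obtain ⟨r, hr⟩ := eq_cs_of_sig_zero hω (DT_forms hω i) haa' hgU (h.isom g hg) (fun m hm => by
      obtain ⟨c, rfl⟩ := perp_two hω hk ha hm
      rw [TD.sig_smul, TD.sig_self hgU, smul_zero])
    obtain ⟨τ, hτ⟩ := h.caseI i a ha r g hg hr
    refine ⟨tv hω τ a, isoW_tv hω τ a, ?_, ?_⟩
    · rw [tv_apply, hω.alt, mul_zero, zero_smul, add_zero]
    · apply Units.ext
      rw [hr, mapU_tv_val, hτ]
  · exact layer hω (DT_forms hω i) (h.goodM i) (h.triv hK hk i) haa' hg hgU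

theorem GoodT.ctx [Fintype F] (hK : KOK F k) {n : ℕ} {M : Subgroup (Module.End F (T F k (n + 1)))ˣ}
    (h : GoodT hω n M) (i : Fin (n + 1)) : Ctx hω (DT hω i) (fT ω n) (fT ω (n + 1)) M where
  hf := DT_forms hω i
  hM := h.goodM i
  hL := fun a ha => h.layerC hK i ha
  hF := fieldOK hω hK
  hk := hK.hk
  hk0 := hK.pos

/-! ### Slot permutations -/

/-- The permutation operator: moves slot `i` to slot `π i`. -/
def pE {n : ℕ} (π : Equiv.Perm (Fin n)) : Module.End F (T F k n) where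
  toFun v := fun a => v (a ∘ π)
  map_add' v w := rfl
  map_smul' c v := rfl

theorem pE_tp {n : ℕ} (π : Equiv.Perm (Fin n)) (xs : Fin n → (Fin k → F)) :
    pE π (tp xs) = tp (fun i => xs (π.symm i)) := by
  funext a
  change tp xs (a ∘ π) = _
  rw [tp_apply, tp_apply]
  rw [← Equiv.prod_comp π fun i => xs (π.symm i) (a i)]
  refine Finset.prod_congr rfl fun i _ => ?_
  rw [Equiv.symm_apply_apply]
  rfl

/-- The permutation operator as a unit. -/
def pU {n : ℕ} (π : Equiv.Perm (Fin n)) : (Module.End F (T F k n))ˣ where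
  val := pE π
  inv := pE π.symm
  val_inv := by
    refine LinearMap.ext fun v => ?_
    funext a
    change v ((a ∘ π) ∘ π.symm) = v a
    rw [Function.comp_assoc, Equiv.self_comp_symm, Function.comp_id]
  inv_val := by
    refine LinearMap.ext fun v => ?_
    funext a
    change v ((a ∘ π.symm) ∘ π) = v a
    rw [Function.comp_assoc, Equiv.symm_comp_self, Function.comp_id]

theorem pU_conj {n : ℕ} (π : Equiv.Perm (Fin n)) (i : Fin n) (x : Module.End F (Fin k → F)) :
    cj (pU π) (sE i x) = sE (π i) x := by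
  rw [cj_eq_iff]
  refine tp_ext fun xs => ?_
  rw [Module.End.mul_apply, Module.End.mul_apply, sE_tp]
  change pE π (tp (Function.update xs i (x (xs i)))) = sE (π i) x (pE π (tp xs))
  rw [pE_tp, pE_tp, sE_tp, Equiv.symm_apply_apply]
  congr 1
  funext j
  by_cases hj : j = π i
  · rw [hj, Function.update_self, Equiv.symm_apply_apply, Function.update_self]
  · rw [Function.update_of_ne hj, Function.update_of_ne]
    intro h0
    exact hj (by rw [← h0, Equiv.apply_symm_apply])

theorem sE_T1 (hω : Symp ω) (s : Module.End F (T F k 1)) : ∃ x : Module.End F (Fin k → F), s = sE 0 x := by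
  -- `ι w 1`
  set b₀ : T F k 0 := tp (fun i => 0) with hb₀
  have hb : ∀ b : T F k 0, b = b default • b₀ := fun b => tp_zero_eq b
  have hb1 : b₀ default = 1 := by rw [hb₀, tp_apply, Fin.prod_univ_zero]
  have hι : ∀ v : T F k 1, v = ιT 0 (fun p => v fun _ => p) b₀ := by
    intro v
    funext a
    rw [ιT_apply]
    have h1 : b₀ (Fin.removeNth 0 a) = 1 := by rw [Subsingleton.elim (Fin.removeNth 0 a) default, hb1]
    rw [h1, mul_one]
    congr 1
    funext i
    rw [Subsingleton.elim i 0]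
  let x : Module.End F (Fin k → F) :=
    { toFun := fun w => fun p => s (ιT 0 w b₀) fun _ => p
      map_add' := fun w w' => by rw [map_add, LinearMap.add_apply, map_add]; rfl
      map_smul' := fun c w => by rw [map_smul, LinearMap.smul_apply, map_smul]; rfl }
  refine ⟨x, (DT hω (0 : Fin 1)).ext hω fun w b => ?_⟩
  rw [DT_ι, sE_ιT_self, hb b, map_smul, map_smul, map_smul, hι (s (ιT 0 w b₀))]
  rfl

/-- **`M` normalises the roots.** -/
theorem norm_root [Fintype F] (hK : KOK F k) {n : ℕ} {M : Subgroup (Module.End F (T F k (n + 2)))ˣ}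
    (h : GoodT hω (n + 1) M) (hA : ∀ π : Equiv.Perm (Fin (n + 2)), Equiv.Perm.sign π = 1 → pU π ∈ M)
    {g : (Module.End F (T F k (n + 2)))ˣ} (hg : g ∈ M) (i : Fin (n + 2)) {w : Fin k → F} (hw : w ≠ 0) :
    ∃ (j : Fin (n + 2)) (u : Fin k → F) (c : F), u ≠ 0 ∧ c ≠ 0 ∧
      cj g (sE i (rk ω w w)) = c • sE j (rk ω u u) := by
  have : NeZero k := ⟨hK.pos.ne'⟩
  have hctx := fun i => h.ctx hK i
  have hRLw : RL (T F k (n + 1)) (fT ω (n + 2)) (cj g (sE i (rk ω w w))) := by
    rw [C_eq hω]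
    exact (rl_cs hω (DT_forms hω i) hw).conj (h.isom g hg)
  -- decomposable elements
  have hdec : ∀ (g : (Module.End F (T F k (n + 2)))ˣ), g ∈ M → g ∈ Dec hω (DT hω i) →
      ∃ (u : Fin k → F) (c : F), u ≠ 0 ∧ c ≠ 0 ∧ cj g (sE i (rk ω w w)) = c • sE i (rk ω u u) := by
    rintro g hg ⟨α, β, rfl⟩
    obtain ⟨μ, hμ, hα⟩ := sim_of_iso hω (DT_forms hω i) hK.pos (h.isom _ hg)
    refine ⟨α.1 w, μ⁻¹, ?_, inv_ne_zero hμ, ?_⟩
    · intro h0
      exact hw (by rw [← inv_apply α w, h0, map_zero])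
    · rw [C_eq hω, C_eq hω, cj_apply, TD.cs_eq_el, (DT hω i).el_conj hω hμ hα, mul_one, ← Units.val_mul,
        mul_inv_cancel, Units.val_one]
      rfl
  obtain ⟨j, v, hjv⟩ : ∃ (j : Fin (n + 2)) (v : Fin k → F),
      cj g (sE i (rk ω w w)) * sE j (rk ω v v) ≠ sE j (rk ω v v) * cj g (sE i (rk ω w w)) := by
    by_contra hcon
    push Not at hcon
    obtain ⟨τ, hτ⟩ := schur hω hK.pos (n + 2) _ hcon
    have h1 := hRLw.sq
    rw [hτ, smul_mul_assoc, one_mul, smul_smul] at h1
    have h2 : τ = 0 := by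
      rcases smul_eq_zero.1 h1 with h2 | h2
      · exact mul_self_eq_zero.1 h2
      · exact absurd h2 one_ne_zero
    have h3 := hRLw.rank
    rw [hτ, h2, zero_smul, LinearMap.range_zero, finrank_bot] at h3
    exact (finrank_pos (R := F) (M := T F k (n + 1))).ne h3
  by_cases hji : j = i
  · subst hji
    rcases slot_dich (hctx j) hK hg with h1 | h1
    · obtain ⟨u, c, hu, hc, huc⟩ := hdec g hg h1
      exact ⟨j, u, c, hu, hc, huc⟩
    · exfalso
      apply hjv
      rw [C_eq hω j v, C_eq hω j w]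
      exact h1 w v
  rcases Nat.eq_zero_or_pos n with rfl | hn
  · -- two slots
    rcases slot_dich (hctx i) hK hg with h1 | h1
    · obtain ⟨u, c, hu, hc, huc⟩ := hdec g hg h1
      exact ⟨i, u, c, hu, hc, huc⟩
    · obtain ⟨a₀, ha₀⟩ := exists_ne_vec (F := F) hK.pos
      obtain ⟨s, hs⟩ := one_map_of_comm (DT hω i) hω ha₀ (fun v => h1 w v)
      obtain ⟨x, hx⟩ := sE_T1 hω s
      rw [hx, map_one_sE, ← C_eq hω, ← map_sE hω (i.succAbove 0) x] at hs
      have hRL' := hRLw
      rw [hs] at hRL'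
      obtain ⟨u, c, hu, hc, huc⟩ := rl_left hω (DT_forms hω (i.succAbove 0)) hRL'
      exact ⟨i.succAbove 0, u, c, hu, hc, by rw [hs, huc, C_eq hω]⟩
  · -- at least three slots
    obtain ⟨l, hli, hlj⟩ : ∃ l : Fin (n + 2), l ≠ i ∧ l ≠ j := by
      by_contra hcon
      push Not at hcon
      have h1 : (Finset.univ : Finset (Fin (n + 2))) ⊆ {i, j} := by
        intro l _
        by_cases h2 : l = i
        · simp [h2]
        · simp [hcon l h2]
      have h2 := Finset.card_le_card h1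
      rw [Finset.card_univ, Fintype.card_fin] at h2
      have h3 : ({i, j} : Finset (Fin (n + 2))).card ≤ 2 := Finset.card_le_two
      omega
    set π : Equiv.Perm (Fin (n + 2)) := Equiv.swap i l * Equiv.swap i j with hπ
    have hsign : Equiv.Perm.sign π = 1 := by
      rw [hπ, Equiv.Perm.sign_mul, Equiv.Perm.sign_swap (Ne.symm hli), Equiv.Perm.sign_swap (Ne.symm hji)]
      decide
    have hπi : π i = j := by
      rw [hπ, Equiv.Perm.mul_apply, Equiv.swap_apply_left, Equiv.swap_apply_of_ne_of_ne hji (Ne.symm hlj)]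
    have hg' : (pU π)⁻¹ * g ∈ M := M.mul_mem (M.inv_mem (hA π hsign)) hg
    rcases slot_dich (hctx i) hK hg' with h1 | h1
    · obtain ⟨u, c, hu, hc, huc⟩ := hdec _ hg' h1
      refine ⟨j, u, c, hu, hc, ?_⟩
      have h2 := congrArg (cj (pU π)) huc
      rw [← cj_mul', mul_inv_cancel_left, cj_smul, pU_conj, hπi] at h2
      exact h2
    · exfalso
      apply hjv
      have h2 := congrArg (cj (pU π)) (h1 w v)
      rw [cj_prod, cj_prod, ← cj_mul', mul_inv_cancel_left, ← C_eq hω, ← C_eq hω, pU_conj, hπi] at h2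
      exact h2

end

end Cfsg.Agent.H889.C7
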