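import Mathlib
import Cfsg.Agent.H889.C7.Norm

/-!
Pure operators on `T n`.
-/

set_option autoImplicit false
set_option linter.unusedSectionVars false
set_option linter.unusedVariables false
set_option linter.unusedSimpArgs false

namespace Cfsg.Agent.H889.C7

open Module Cfsg.Agent.H889

variable {F : Type*} [Field F] {k : ℕ} {ω : LinearMap.BilinForm F (Fin k → F)}

/-- The pure operator `⊗ x j`. -/
noncomputable def pm' {n : ℕ} (x : Fin n → Module.End F (Fin k → F)) : Module.End F (T F k n) :=
  Matrix.toLin' (pm fun i => LinearMap.toMatrix' (x i))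

theorem pm'_tp {n : ℕ} (x : Fin n → Module.End F (Fin k → F)) (xs : Fin n → (Fin k → F)) :
    pm' x (tp xs) = tp (fun i => x i (xs i)) := by
  rw [pm', Matrix.toLin'_apply, pm_mulVec]
  congr 1
  funext i
  rw [← Matrix.toLin'_apply, Matrix.toLin'_toMatrix']

theorem pm'_mul {n : ℕ} (x y : Fin n → Module.End F (Fin k → F)) :
    pm' x * pm' y = pm' (fun i => x i * y i) := by
  refine tp_ext fun xs => ?_
  rw [Module.End.mul_apply, pm'_tp, pm'_tp, pm'_tp]
  rfl

theorem pm'_eq_one {n : ℕ} : pm' (fun _ : Fin n => (1 : Module.End F (Fin k → F))) = 1 := by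
  refine tp_ext fun xs => ?_
  rw [pm'_tp]; rfl

theorem pm'_update_tp {n : ℕ} (x : Fin n → Module.End F (Fin k → F)) (j : Fin n)
    (y : Module.End F (Fin k → F)) (xs : Fin n → (Fin k → F)) :
    pm' (Function.update x j y) (tp xs) = tp (Function.update (fun i => x i (xs i)) j (y (xs j))) := by
  rw [pm'_tp]
  congr 1
  funext i
  by_cases h : i = j
  · subst h
    rw [Function.update_self, Function.update_self]
  · rw [Function.update_of_ne h, Function.update_of_ne h]

theorem sE_mul_pm' {n : ℕ} (j : Fin n) (y : Module.End F (Fin k → F))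
    (x : Fin n → Module.End F (Fin k → F)) : sE j y * pm' x = pm' (Function.update x j (y * x j)) := by
  refine tp_ext fun xs => ?_
  rw [Module.End.mul_apply, pm'_update_tp, pm'_tp, sE_tp]
  rfl

theorem pm'_mul_sE {n : ℕ} (j : Fin n) (y : Module.End F (Fin k → F))
    (x : Fin n → Module.End F (Fin k → F)) : pm' x * sE j y = pm' (Function.update x j (x j * y)) := by
  refine tp_ext fun xs => ?_
  rw [Module.End.mul_apply, pm'_update_tp, sE_tp, pm'_tp]
  congr 1
  funext i
  by_cases h : i = j
  · subst h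
    rw [Function.update_self, Function.update_self]
    rfl
  · rw [Function.update_of_ne h, Function.update_of_ne h]

theorem pm'_conj {n : ℕ} (j : Fin n) (α : (Module.End F (Fin k → F))ˣ)
    (x : Fin n → Module.End F (Fin k → F)) :
    sE j α.1 * pm' x * sE j (α⁻¹).1 = pm' (Function.update x j (α.1 * x j * (α⁻¹).1)) := by
  rw [sE_mul_pm', pm'_mul_sE, Function.update_self, Function.update_idem]

theorem pm'_smul {n : ℕ} (x : Fin n → Module.End F (Fin k → F)) (j : Fin n) (c : F)
    (y : Module.End F (Fin k → F)) : pm' (Function.update x j (c • y)) = c • pm' (Function.update x j y) := by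
  refine tp_ext fun xs => ?_
  rw [LinearMap.smul_apply, pm'_update_tp, pm'_update_tp, LinearMap.smul_apply, tp_update_smul]

theorem pm'_perm {n : ℕ} (π : Equiv.Perm (Fin n)) (x : Fin n → Module.End F (Fin k → F)) :
    cj (pU π) (pm' x) = pm' (fun i => x (π.symm i)) := by
  rw [cj_eq_iff]
  refine tp_ext fun xs => ?_
  rw [Module.End.mul_apply, Module.End.mul_apply, pm'_tp]
  change pE π (tp fun i => x i (xs i)) = pm' _ (pE π (tp xs))
  rw [pE_tp, pE_tp, pm'_tp]

/-- In terms of slot `i`. -/
theorem map_pm' (hω : Symp ω) {n : ℕ} (i : Fin (n + 1)) (y : Module.End F (Fin k → F))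
    (x : Fin n → Module.End F (Fin k → F)) :
    (DT hω i).map hω y (pm' x) = pm' (i.insertNth y x : Fin (n + 1) → Module.End F (Fin k → F)) := by
  refine (DT hω i).ext hω fun w b => ?_
  have h : (DT hω i).map hω y (pm' x) ∘ₗ ιT i w =
      pm' (i.insertNth y x : Fin (n + 1) → Module.End F (Fin k → F)) ∘ₗ ιT i w := by
    refine tp_ext fun xs => ?_
    rw [LinearMap.comp_apply, LinearMap.comp_apply, ← DT_ι hω, TD.map_ι, DT_ι, pm'_tp, ιT_tp, ιT_tp, pm'_tp]
    congr 1
    funext m
    rcases Fin.eq_self_or_eq_succAbove i m with rfl | ⟨m', rfl⟩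
    · rw [Fin.insertNth_apply_same, Fin.insertNth_apply_same, Fin.insertNth_apply_same]
    · rw [Fin.insertNth_apply_succAbove, Fin.insertNth_apply_succAbove, Fin.insertNth_apply_succAbove]
  exact LinearMap.congr_fun h b

theorem tp_ne_zero {n : ℕ} {xs : Fin n → (Fin k → F)} (h : ∀ i, xs i ≠ 0) : tp xs ≠ 0 := by
  have h' : ∀ i, ∃ a, xs i a ≠ 0 := fun i => by
    by_contra hcon
    push Not at hcon
    exact h i (funext hcon)
  choose a ha using h'
  intro h0
  have := congrFun h0 a
  rw [tp_apply] at this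
  exact (Finset.prod_ne_zero_iff.2 fun i _ => ha i) this

theorem tp_eq_zero {n : ℕ} {xs : Fin n → (Fin k → F)} {i : Fin n} (h : xs i = 0) : tp xs = 0 := by
  funext a
  rw [tp_apply]
  exact Finset.prod_eq_zero (Finset.mem_univ i) (by rw [h]; rfl)

/-- The rank one operator. -/
noncomputable def R1 {n : ℕ} (ω : LinearMap.BilinForm F (Fin k → F)) (p r : T F k n) : Module.End F (T F k n) :=
  (fT ω n r).smulRight p

theorem R1_apply {n : ℕ} (p r v : T F k n) : R1 ω p r v = fT ω n r v • p := rfl

theorem pm'_rk {n : ℕ} (p r : Fin n → (Fin k → F)) :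
    pm' (fun i => rk ω (p i) (r i)) = R1 ω (tp p) (tp r) := by
  refine tp_ext fun xs => ?_
  rw [pm'_tp, R1_apply, fT_tp]
  funext a
  rw [tp_apply, Pi.smul_apply, tp_apply, smul_eq_mul, ← Finset.prod_mul_distrib]
  exact Finset.prod_congr rfl fun i _ => rfl

end Cfsg.Agent.H889.C7
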